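import Mathlib
import Cfsg.Agent.Lib.LargeExtra.FStar
import Cfsg.Agent.Lib.PGroups.Special

/-!
From `LX` (plus the odd-order clause) to `IsLargeExtraspecial`.
-/

set_option autoImplicit false
set_option linter.unusedSectionVars false
set_option linter.unusedVariables false
set_option linter.style.longLine false
set_option linter.unusedSimpArgs false
set_option linter.unnecessarySimpa false

namespace Cfsg.Agent.Lib.LargeExtra.LargeOf

open Cfsg.Agent.Lib.LargeExtra.Basic Cfsg.Agent.Lib.LargeExtra.Pair
open scoped commutatorElement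

variable {G : Type*} [Group G] [Finite G]

/-- The centre of an `LX`-subgroup. -/
theorem center_eq {P : Subgroup G} {z : G} (hL : LX z P) :
    (Subgroup.center ↥P).map P.subtype = Subgroup.zpowers z := by
  have hzz := hL.sq
  apply le_antisymm
  · rintro _ ⟨a, ha, rfl⟩
    rcases hL.rad a a.2 (fun b hb => (congrArg Subtype.val (Subgroup.mem_center_iff.1 ha ⟨b, hb⟩)).symm) with h | h
    · simp only [Subgroup.coe_subtype]
      rw [h]; exact one_mem _
    · simp only [Subgroup.coe_subtype]
      rw [h]; exact Subgroup.mem_zpowers z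
  · rw [Subgroup.zpowers_le]
    refine ⟨⟨z, hL.mem⟩, ?_, rfl⟩
    rw [SetLike.mem_coe, Subgroup.mem_center_iff]
    intro g
    exact Subtype.ext (hL.central g g.2)

theorem orderOf_eq {z : G} (hz1 : z ≠ 1) (hzz : z * z = 1) : orderOf z = 2 :=
  orderOf_eq_prime (by rw [pow_two]; exact hzz) hz1

theorem large_of_lx {P : Subgroup G} {z : G} (hL : LX z P) (hnc : ∃ a ∈ P, ∃ b ∈ P, a * b ≠ b * a)
    (hodd : ∀ K : Subgroup G, Odd (Nat.card ↥K) → P ≤ Subgroup.normalizer (K : Set G) → K = ⊥) :
    Cfsg.IsLargeExtraspecial P := by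
  classical
  have hF : Fact (Nat.Prime 2) := ⟨Nat.prime_two⟩
  have hZ := center_eq hL
  have hord := orderOf_eq hL.ne_one hL.sq
  have hzp : ∀ x, x ∈ Subgroup.zpowers z → x = 1 ∨ x = z := by
    rintro x ⟨k, rfl⟩
    have h2z : z ^ (2 : ℤ) = 1 := by
      rw [zpow_ofNat, pow_two, hL.sq]
    rcases Int.emod_two_eq_zero_or_one k with h | h
    · left
      simp only
      rw [← Int.emod_add_mul_ediv k 2, h, zero_add, zpow_mul, h2z, one_zpow]
    · right
      simp only
      rw [← Int.emod_add_mul_ediv k 2, h, zpow_add, zpow_mul, h2z, one_zpow, zpow_one, mul_one]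
  have hcen : ∀ a : ↥P, ((a : G) = 1 ∨ (a : G) = z) → a ∈ Subgroup.center ↥P := by
    intro a ha
    rw [Subgroup.mem_center_iff]
    intro g
    rcases ha with h | h
    · have : a = 1 := Subtype.ext h
      rw [this]; simp
    · apply Subtype.ext
      simp only [Subgroup.coe_mul]
      rw [h]
      exact hL.central g g.2
  have hcard : Nat.card ↥(Subgroup.center ↥P) = 2 := by
    have h1 : Nat.card ↥((Subgroup.center ↥P).map P.subtype) = Nat.card ↥(Subgroup.center ↥P) :=
      Subgroup.card_map_of_injective P.subtype_injective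
    rw [← h1, hZ, Nat.card_zpowers, hord]
  have hex : Cfsg.IsExtraspecial 2 ↥P := by
    apply Cfsg.Agent.Lib.PGroups.Special.ExtraLike.isExtraspecial
    · refine ⟨hL.isPGroup, hcard, ?_, ?_⟩
      · intro a b
        apply hcen
        rw [commutatorElement_def]
        simpa using hL.comm a a.2 b b.2
      · intro a
        apply hcen
        simpa [pow_two] using hL.sq_mem a a.2
    · intro hc
      obtain ⟨a, ha, b, hb, hab⟩ := hnc
      apply hab
      have := hc.is_comm.comm ⟨a, ha⟩ ⟨b, hb⟩
      exact congrArg Subtype.val this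
  refine ⟨hex, ?_, ?_, hodd⟩
  · apply le_antisymm
    · intro x hx
      rw [Subgroup.mem_centralizer_iff] at hx
      rw [hZ]
      rcases hL.cent x (fun a ha => (hx a ha).symm) with h | h
      · rw [h]; exact one_mem _
      · rw [h]; exact Subgroup.mem_zpowers z
    · rw [hZ, Subgroup.zpowers_le, Subgroup.mem_centralizer_iff]
      intro a ha
      exact hL.central a ha
  · intro x hx
    rw [hZ, Subgroup.mem_centralizer_iff] at hx
    have hxz : x * z = z * x := (hx z (Subgroup.mem_zpowers z)).symm
    rw [Subgroup.mem_normalizer_iff]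
    intro a
    refine ⟨fun ha => hL.norm x hxz a ha, fun ha => ?_⟩
    have := hL.norm x⁻¹ (show Commute x z from hxz).inv_left.eq _ ha
    have e : x⁻¹ * (x * a * x⁻¹) * x⁻¹⁻¹ = a := by group
    rwa [e] at this

end Cfsg.Agent.Lib.LargeExtra.LargeOf
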