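import Mathlib
import Cfsg.Agent.Lib.LargeExtra.LargeOf
import Cfsg.Agent.Lib.Components.Layer
import Cfsg.Agent.Lib.Components.SylowSub
import Cfsg.Agent.Lib.Components.GenFitting

/-!
Large extraspecial subgroups and the generalized Fitting subgroup.
-/

set_option autoImplicit false
set_option linter.unusedSectionVars false
set_option linter.unusedVariables false
set_option linter.style.longLine false
set_option linter.unusedSimpArgs false
set_option linter.unnecessarySimpa false
set_option linter.style.haveILetI false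

namespace Cfsg.Agent.Lib.LargeExtra.Comp

open Cfsg Subgroup
open Cfsg.Agent.Lib.LargeExtra.Basic Cfsg.Agent.Lib.LargeExtra.Pair Cfsg.Agent.Lib.LargeExtra.FStar
open Cfsg.Agent.Lib.Components.Basic
open scoped commutatorElement

variable {G : Type*} [Group G] [Finite G] {Q : Subgroup G} {z : G}

theorem eq_bot_of_notMem (hL : LX z Q)
    (hodd : ∀ K₀ : Subgroup G, Odd (Nat.card ↥K₀) → Q ≤ Subgroup.normalizer (K₀ : Set G) → K₀ = ⊥)
    {N : Subgroup G} (hN : N.Normal) (hzN : z ∉ N) : N = ⊥ := by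
  have hQN : ∀ x ∈ N, x ∈ Q → x = 1 := by
    intro x hxN hxQ
    by_contra hx1
    have hxz : x ≠ z := fun h => hzN (h ▸ hxN)
    obtain ⟨q, hq, hqx⟩ := hL.exists_comm hxQ hx1 hxz
    apply hzN
    have h1 : q * x * q⁻¹ ∈ N := hN.conj_mem x hxN q
    rw [hqx] at h1
    have : z = z * x * x⁻¹ := by group
    rw [this]
    exact mul_mem h1 (inv_mem hxN)
  have hfp : ∀ k ∈ N, k * z = z * k → k = 1 := by
    intro k hk hkz
    have hc : ∀ q ∈ Q, k * q = q * k := by
      intro q hq
      have h1 : k * q * k⁻¹ * q⁻¹ ∈ Q := mul_mem (hL.norm k hkz q hq) (inv_mem hq)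
      have h2 : k * q * k⁻¹ * q⁻¹ ∈ N := by
        have e : k * q * k⁻¹ * q⁻¹ = k * (q * k⁻¹ * q⁻¹) := by group
        rw [e]
        exact mul_mem hk (hN.conj_mem _ (inv_mem hk) q)
      exact (Cfsg.Agent.Lib.LargeExtra.Duality.comm_eq_one_iff k q).1 (hQN _ h2 h1)
    rcases hL.cent k hc with h1 | h1
    · exact h1
    · exact absurd (h1 ▸ hk) hzN
  apply hodd N (odd_of_fpf hL.sq (fun n hn => hN.conj_mem n hn z) hfp)
  intro q _
  rw [Subgroup.mem_normalizer_iff]
  intro n
  constructor
  · intro hn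
    exact hN.conj_mem n hn q
  · intro hn
    have := hN.conj_mem _ hn q⁻¹
    have e : q⁻¹ * (q * n * q⁻¹) * q⁻¹⁻¹ = n := by group
    rwa [e] at this

theorem central_of_sylow (hL : LX z Q) (T : Sylow 2 G) (hT : Q ≤ (T : Subgroup G)) :
    ∀ a ∈ (T : Subgroup G), a * z = z * a := by
  have hF : Fact (Nat.Prime 2) := ⟨Nat.prime_two⟩
  have hTP : IsPGroup 2 ↥(T : Subgroup G) := T.isPGroup'
  have hnT : Nontrivial ↥(T : Subgroup G) := ⟨⟨⟨z, hT hL.mem⟩, 1, fun h => hL.ne_one (congrArg Subtype.val h)⟩⟩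
  have hcn := hTP.center_nontrivial
  obtain ⟨c, hc1⟩ := exists_ne (1 : Subgroup.center ↥(T : Subgroup G))
  have hcz : ((c : ↥(T : Subgroup G)) : G) = z := by
    rcases hL.cent _ (fun a ha => (congrArg Subtype.val (Subgroup.mem_center_iff.1 c.2 ⟨a, hT ha⟩)).symm) with h | h
    · exfalso
      apply hc1
      apply Subtype.ext
      apply Subtype.ext
      exact h
    · exact h
  intro a ha
  have := Subgroup.mem_center_iff.1 c.2 ⟨a, ha⟩
  have h2 := congrArg Subtype.val this
  simp only [Subgroup.coe_mul] at h2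
  rwa [hcz] at h2

/-- A component is not centralized by `z`. -/
theorem no_comp (hL : LX z Q) {K : Subgroup G} (hK : IsComponent K) : ¬ ∀ k ∈ K, k * z = z * k := by
  intro hc
  have hN : K ≤ Subgroup.normalizer (Q : Set G) := by
    intro k hk
    rw [Subgroup.mem_normalizer_iff]
    intro a
    refine ⟨fun ha => hL.norm k (hc k hk) a ha, fun ha => ?_⟩
    have := hL.norm k⁻¹ (hc _ (inv_mem hk)) _ ha
    have e : k⁻¹ * (k * a * k⁻¹) * k⁻¹⁻¹ = a := by group
    rwa [e] at this
  have hKQ : K ≤ Q := by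
    rcases component_le_or_commutator_eq_bot_of_le_normalizer hK hN with h | h
    · exact h
    · intro k hk
      rcases hL.cent k (fun a ha => by
        have h1 : ⁅k, a⁆ ∈ ⁅K, Q⁆ := Subgroup.commutator_mem_commutator hk ha
        rw [h, Subgroup.mem_bot, commutatorElement_eq_one_iff_commute] at h1
        exact h1) with h2 | h2
      · rw [h2]; exact one_mem _
      · rw [h2]; exact hL.mem
  haveI : Fact (Nat.Prime 2) := ⟨Nat.prime_two⟩
  have hnil : Group.IsNilpotent ↥Q := hL.isPGroup.isNilpotent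
  exact quasisimple_not_nilpotent hK.2 (nilpotent_of_subgroup_le hKQ hnil)

theorem fitting_eq (hodd : ∀ K₀ : Subgroup G, Odd (Nat.card ↥K₀) → Q ≤ Subgroup.normalizer (K₀ : Set G) → K₀ = ⊥) :
    fittingSubgroup G = pCore 2 G := by
  haveI : Fact (Nat.Prime 2) := ⟨Nat.prime_two⟩
  apply le_antisymm
  · refine (Cfsg.Agent.Lib.Core.Basic.le_iSup_pCore_of_nilpotent inferInstance Cfsg.Agent.Lib.Core.Basic.fittingSubgroup_isNilpotent).trans ?_
    apply iSup_le
    intro p
    by_cases hp : (p : ℕ) = 2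
    · rw [hp]
    · haveI : Fact (p : ℕ).Prime := ⟨p.2⟩
      have h1 : pCore (p : ℕ) G = ⊥ := by
        apply hodd
        · obtain ⟨k, hk⟩ := IsPGroup.iff_card.1 (Cfsg.Agent.Lib.Core.Basic.pCore_isPGroup (p := (p : ℕ)) (G := G))
          rw [hk]
          exact Odd.pow (p.2.odd_of_ne_two hp)
        · have : (pCore (p : ℕ) G).Normal := pCore_normal _ _
          rw [Subgroup.normalizer_eq_top]
          exact le_top
      rw [h1]
      exact bot_le
  · exact Cfsg.Agent.Lib.Core.Basic.pCore_le_fittingSubgroup 2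

/-- If `O₂(G) ≠ 1`, the normal closure of `z` is abelian and `F*(G) = O₂(G)`. -/
theorem caseA (hL : LX z Q)
    (hodd : ∀ K₀ : Subgroup G, Odd (Nat.card ↥K₀) → Q ≤ Subgroup.normalizer (K₀ : Set G) → K₀ = ⊥)
    (hU : pCore 2 G ≠ ⊥) :
    IsMulCommutative ↥(Subgroup.normalClosure ({z} : Set G)) ∧ generalizedFittingSubgroup G = pCore 2 G := by
  haveI : Fact (Nat.Prime 2) := ⟨Nat.prime_two⟩
  set U := pCore 2 G with hUdef
  have hUn : U.Normal := pCore_normal _ _
  have hUP : IsPGroup 2 ↥U := Cfsg.Agent.Lib.Core.Basic.pCore_isPGroup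
  have hUnt : Nontrivial ↥U := (Subgroup.nontrivial_iff_ne_bot U).2 hU
  have hcn := hUP.center_nontrivial
  have hNn : ((Subgroup.center ↥U).map U.subtype).Normal := inferInstance
  have hNne : (Subgroup.center ↥U).map U.subtype ≠ ⊥ := by
    obtain ⟨c, hc1⟩ := exists_ne (1 : Subgroup.center ↥U)
    intro hb
    have : ((c : ↥U) : G) ∈ (Subgroup.center ↥U).map U.subtype := ⟨c, c.2, rfl⟩
    rw [hb, Subgroup.mem_bot] at this
    apply hc1
    apply Subtype.ext
    apply Subtype.ext
    exact this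
  have hzN : z ∈ (Subgroup.center ↥U).map U.subtype := by
    by_contra h
    exact hNne (eq_bot_of_notMem hL hodd hNn h)
  have hMN : Subgroup.normalClosure ({z} : Set G) ≤ (Subgroup.center ↥U).map U.subtype :=
    Subgroup.normalClosure_le_normal (by simpa using hzN)
  have hzU : z ∈ U := (Subgroup.map_le_iff_le_comap.2 (fun a _ => a.2) : (Subgroup.center ↥U).map U.subtype ≤ U) hzN
  constructor
  · constructor
    constructor
    rintro ⟨a, ha⟩ ⟨b, hb⟩
    apply Subtype.ext
    obtain ⟨a', ha', rfl⟩ := hMN ha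
    obtain ⟨b', hb', rfl⟩ := hMN hb
    simp only [MulMemClass.mk_mul_mk]
    exact (congrArg Subtype.val (Subgroup.mem_center_iff.1 hb' a'))
  · have hlay : layer G = ⊥ := by
      rw [layer, sSup_eq_bot]
      intro K hK
      exfalso
      apply no_comp hL hK
      intro k hk
      have hc := component_commutator_normal_nilpotent hK hUn hUP.isNilpotent
      have h1 : ⁅k, z⁆ ∈ ⁅K, U⁆ := Subgroup.commutator_mem_commutator hk hzU
      rw [hc, Subgroup.mem_bot, commutatorElement_eq_one_iff_commute] at h1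
      exact h1
    rw [generalizedFittingSubgroup, hlay, bot_sup_eq, fitting_eq hodd]

/-- Two subgroups which commute and meet trivially: uniqueness of factorization. -/
theorem unique_of {A B : Subgroup G} (hi : ∀ x ∈ A, x ∈ B → x = 1) {a a' b b' : G}
    (ha : a ∈ A) (ha' : a' ∈ A) (hb : b ∈ B) (hb' : b' ∈ B) (h : a * b = a' * b') : a = a' ∧ b = b' := by
  have h1 : a'⁻¹ * a = b' * b⁻¹ := by
    calc a'⁻¹ * a = a'⁻¹ * (a * b) * b⁻¹ := by group
      _ = a'⁻¹ * (a' * b') * b⁻¹ := by rw [h]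
      _ = b' * b⁻¹ := by group
  have h2 := hi _ (mul_mem (inv_mem ha') ha) (by rw [h1]; exact mul_mem hb' (inv_mem hb))
  constructor
  · have : a' * (a'⁻¹ * a) = a' * 1 := by rw [h2]
    simpa using this
  · rw [h1] at h2
    have : b' * b⁻¹ * b = 1 * b := by rw [h2]
    simpa using this.symm

section dec

variable (hfit : fittingSubgroup G = ⊥)
include hfit

theorem comm_comp {K K' : Subgroup G} (hK : IsComponent K) (hK' : IsComponent K') (hne : K ≠ K')
    {a b : G} (ha : a ∈ K) (hb : b ∈ K') : a * b = b * a := by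
  rcases component_eq_or_commutator_eq_bot hK hK' with h | h
  · exact absurd h hne
  · have h1 : ⁅a, b⁆ ∈ ⁅K, K'⁆ := Subgroup.commutator_mem_commutator ha hb
    rw [h, Subgroup.mem_bot, commutatorElement_eq_one_iff_commute] at h1
    exact h1

/-- The complementary join. -/
def compl (𝒜 : Set (Subgroup G)) : Subgroup G := sSup {K | IsComponent K ∧ K ∉ 𝒜}

theorem comm_dec {𝒜 : Set (Subgroup G)} (h𝒜 : ∀ K ∈ 𝒜, IsComponent K) {a b : G} (ha : a ∈ sSup 𝒜)
    (hb : b ∈ compl 𝒜) : a * b = b * a := by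
  have h1 : sSup 𝒜 ≤ Subgroup.centralizer ((compl 𝒜 : Subgroup G) : Set G) := by
    apply sSup_le
    intro K' hK'
    rw [Subgroup.le_centralizer_iff]
    apply sSup_le
    rintro K ⟨hK, hKn⟩
    rw [Subgroup.le_centralizer_iff]
    intro x hx
    rw [Subgroup.mem_centralizer_iff]
    intro y hy
    have hne : K' ≠ K := fun h => hKn (h ▸ hK')
    exact (comm_comp hfit (h𝒜 K' hK') hK hne hx hy).symm
  exact (Subgroup.mem_centralizer_iff.1 (h1 ha) b hb).symm

theorem sup_dec {𝒜 : Set (Subgroup G)} (h𝒜 : ∀ K ∈ 𝒜, IsComponent K) : sSup 𝒜 ⊔ compl 𝒜 = layer G := by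
  apply le_antisymm
  · refine sup_le (sSup_le_sSup h𝒜) (sSup_le_sSup (fun K hK => hK.1))
  · apply sSup_le
    intro K hK
    by_cases h : K ∈ 𝒜
    · exact le_sup_of_le_left (le_sSup h)
    · exact le_sup_of_le_right (le_sSup ⟨hK, h⟩)

theorem inter_dec {𝒜 : Set (Subgroup G)} (h𝒜 : ∀ K ∈ 𝒜, IsComponent K) {x : G} (h1 : x ∈ sSup 𝒜)
    (h2 : x ∈ compl 𝒜) : x = 1 := by
  have hsup := sup_dec hfit h𝒜
  have hxl : x ∈ layer G := by rw [← hsup]; exact (le_sup_left : sSup 𝒜 ≤ _) h1
  have hxc : x ∈ Subgroup.centralizer (layer G : Set G) := by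
    rw [Subgroup.mem_centralizer_iff]
    intro y hy
    rw [SetLike.mem_coe, ← hsup] at hy
    have hle : sSup 𝒜 ⊔ compl 𝒜 ≤ Subgroup.centralizer ({x} : Set G) := by
      refine sup_le ?_ ?_
      · intro a ha
        rw [Subgroup.mem_centralizer_iff]
        rintro _ rfl
        exact comm_dec hfit h𝒜 ha h2 |>.symm
      · intro b hb
        rw [Subgroup.mem_centralizer_iff]
        rintro _ rfl
        exact comm_dec hfit h𝒜 h1 hb
    have := hle hy
    rw [Subgroup.mem_centralizer_iff] at this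
    exact (this x rfl).symm
  have := Cfsg.Agent.Lib.Components.Layer.mem_fitting_of_mem_layer_of_mem_centralizer hxl hxc
  rw [hfit, Subgroup.mem_bot] at this
  exact this

theorem exists_dec {𝒜 : Set (Subgroup G)} (h𝒜 : ∀ K ∈ 𝒜, IsComponent K) {e : G} (he : e ∈ layer G) :
    ∃ a ∈ sSup 𝒜, ∃ b ∈ compl 𝒜, a * b = e := by
  rw [← sup_dec hfit h𝒜] at he
  apply mem_sup_of_commutator_eq_bot _ he
  rw [eq_bot_iff, Subgroup.commutator_le]
  intro a ha b hb
  rw [Subgroup.mem_bot, commutatorElement_eq_one_iff_commute]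
  exact comm_dec hfit h𝒜 ha hb

/-- A component is simple. -/
theorem center_comp {K : Subgroup G} (hK : IsComponent K) : Subgroup.center ↥K = ⊥ := by
  have hs : ((Subgroup.center ↥K).map K.subtype).IsSubnormal := by
    refine Subgroup.IsSubnormal.trans' (K := K) (H := Subgroup.center ↥K) ?_ hK.1
    exact Subgroup.Normal.isSubnormal inferInstance
  have hnil : Group.IsNilpotent ↥((Subgroup.center ↥K).map K.subtype) := by
    have : IsMulCommutative ↥((Subgroup.center ↥K).map K.subtype) := by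
      constructor
      constructor
      rintro ⟨_, a, ha, rfl⟩ ⟨_, b, hb, rfl⟩
      apply Subtype.ext
      show K.subtype a * K.subtype b = K.subtype b * K.subtype a
      simp only [Subgroup.coe_subtype]
      exact (congrArg Subtype.val (Subgroup.mem_center_iff.1 hb a))
    exact Cfsg.Agent.Lib.Core.Basic.isNilpotent_of_isMulCommutative
  have := Cfsg.Agent.Lib.Core.Basic.le_fittingSubgroup_of_isSubnormal hs hnil
  rw [hfit, le_bot_iff] at this
  exact (Subgroup.map_eq_bot_iff_of_injective _ K.subtype_injective).1 this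

theorem simple_comp {K : Subgroup G} (hK : IsComponent K) : IsSimpleGroup ↥K := by
  have h1 := hK.2.2
  have hc := center_comp hfit hK
  have e : ↥K ≃* (↥K ⧸ Subgroup.center ↥K) :=
    (QuotientGroup.quotientBot (G := ↥K)).symm.trans (QuotientGroup.quotientMulEquivOfEq hc.symm)
  exact e.isSimpleGroup

theorem not_comm_comp {K : Subgroup G} (hK : IsComponent K) : ¬ IsMulCommutative ↥K := by
  intro hc
  have hnil : Group.IsNilpotent ↥K := Cfsg.Agent.Lib.Core.Basic.isNilpotent_of_isMulCommutative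
  exact quasisimple_not_nilpotent hK.2 hnil

end dec

/-- A non-abelian simple group has no Sylow 2-subgroup of order at most two, if it has an involution. -/
theorem no_small_sylow {X : Type*} [Group X] [Finite X] (hs : IsSimpleGroup X) (hnc : ¬ IsMulCommutative X)
    (P : Sylow 2 X) (a : X) (ha : ∀ p ∈ (P : Subgroup X), p = 1 ∨ p = a) {b : X} (hb1 : b ≠ 1) (hbb : b * b = 1) : False := by
  classical
  have hF2 : Fact (Nat.Prime 2) := ⟨Nat.prime_two⟩
  -- `P` has order 2.
  have hbP : IsPGroup 2 ↥(Subgroup.zpowers b) := by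
    intro c
    refine ⟨1, ?_⟩
    obtain ⟨c, k, rfl⟩ := c
    apply Subtype.ext
    simp only [Subgroup.coe_pow, Subgroup.coe_one, pow_one]
    rw [← zpow_natCast, ← zpow_mul, mul_comm, zpow_mul]
    have : b ^ ((2 : ℕ) : ℤ) = 1 := by
      rw [zpow_natCast, pow_two, hbb]
    rw [this, one_zpow]
  obtain ⟨P₁, hP₁⟩ := hbP.exists_le_sylow
  have hcard : Nat.card ↥(P : Subgroup X) = Nat.card ↥(P₁ : Subgroup X) := (Sylow.card_eq_multiplicity P).trans (Sylow.card_eq_multiplicity P₁).symm
  have hbm : b ∈ (P₁ : Subgroup X) := hP₁ (Subgroup.mem_zpowers b)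
  have hP2 : 2 ≤ Nat.card ↥(P₁ : Subgroup X) := by
    have : Nontrivial ↥(P₁ : Subgroup X) := ⟨⟨⟨b, hbm⟩, 1, fun h => hb1 (congrArg Subtype.val h)⟩⟩
    exact Finite.one_lt_card
  have hP3 : Nat.card ↥(P : Subgroup X) ≤ 2 := by
    have h1 : ((P : Subgroup X) : Set X) ⊆ (({1, a} : Finset X) : Set X) := by
      intro x hx
      simpa using ha x hx
    have h2 := Set.ncard_le_ncard h1 (Finset.finite_toSet _)
    rw [Set.ncard_coe_finset] at h2
    have h3 : Nat.card ↥(P : Subgroup X) = ((P : Subgroup X) : Set X).ncard := by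
      rw [← Nat.card_coe_set_eq]; rfl
    rw [h3]
    exact h2.trans (Finset.card_le_two)
  have hPc : Nat.card ↥(P : Subgroup X) = 2 := by omega
  have hPz : ∀ p ∈ (P : Subgroup X), ∀ g : X, g⁻¹ * p * g ∈ (P : Subgroup X) → g * p = p * g := by
    intro p hp g hg
    have hgp : g⁻¹ * p * g = p := by
      rcases ha _ hg with h1 | h1
      · have hp1 : p = 1 := by
          have : p = g * (g⁻¹ * p * g) * g⁻¹ := by group
          rw [this, h1]; group
        rw [hp1]; group
      · rcases ha p hp with h2 | h2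
        · rw [h2]; group
        · rw [h1, h2]
    calc g * p = g * (g⁻¹ * p * g) := by rw [hgp]
      _ = p * g := by group
  have hnc2 : Subgroup.normalizer ((P : Subgroup X) : Set X) ≤ Subgroup.centralizer ((P : Subgroup X) : Set X) := by
    intro x hx
    rw [Subgroup.mem_centralizer_iff]
    intro p hp
    have := (Subgroup.mem_normalizer_iff.1 (inv_mem hx) p).1 hp
    have e : x⁻¹ * p * x⁻¹⁻¹ = x⁻¹ * p * x := by group
    rw [e] at this
    exact (hPz p hp x this).symm
  have hcompl := MonoidHom.ker_transferSylow_isComplement' P hnc2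
  set K := (MonoidHom.transferSylow P hnc2).ker with hK
  have hKn : K.Normal := MonoidHom.normal_ker _
  have hKcard : Nat.card ↥K * Nat.card ↥(P : Subgroup X) = Nat.card X := hcompl.card_mul_card
  rw [hPc] at hKcard
  have hpos : 0 < Nat.card X := Nat.card_pos
  rcases hs.eq_bot_or_eq_top_of_normal K hKn with h | h
  · rw [h] at hKcard
    simp only [Subgroup.card_bot, one_mul] at hKcard
    apply hnc
    have hp2 : Fact (Nat.card X).Prime := ⟨by rw [← hKcard]; exact Nat.prime_two⟩
    have hcyc : IsCyclic X := isCyclic_of_prime_card rfl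
    exact ⟨⟨fun x y => by
      letI := IsCyclic.commGroup (α := X)
      exact mul_comm x y⟩⟩
  · rw [h] at hKcard
    simp only [Subgroup.card_top] at hKcard
    omega

theorem mem_zpowers_invol' {t x : G} (htt : t * t = 1) (hx : x ∈ Subgroup.zpowers t) :
    x = 1 ∨ x = t := by
  obtain ⟨k, rfl⟩ := hx
  have h2z : t ^ (2 : ℤ) = 1 := by
    rw [zpow_ofNat, pow_two, htt]
  rcases Int.emod_two_eq_zero_or_one k with h | h
  · left
    simp only
    rw [← Int.emod_add_mul_ediv k 2, h, zero_add, zpow_mul, h2z, one_zpow]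
  · right
    simp only
    rw [← Int.emod_add_mul_ediv k 2, h, zpow_add, zpow_mul, h2z, one_zpow, zpow_one, mul_one]

/-- The conjugate of a subgroup. -/
abbrev cj (g : G) (K : Subgroup G) : Subgroup G := K.map (MulAut.conj g).toMonoidHom

theorem conj_mem_cj {g k : G} {K : Subgroup G} (hk : k ∈ K) : g * k * g⁻¹ ∈ cj g K :=
  ⟨k, hk, by simp⟩

theorem cj_mul (a b : G) (K : Subgroup G) : cj (a * b) K = cj a (cj b K) := by
  ext x
  rw [mem_map_conj, mem_map_conj, mem_map_conj]
  have e : (a * b)⁻¹ * x * (a * b) = b⁻¹ * (a⁻¹ * x * a) * b := by group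
  rw [e]

theorem cj_one (K : Subgroup G) : cj (1 : G) K = K := by
  ext x
  rw [mem_map_conj]
  simp

theorem caseB (hL : LX z Q)
    (hodd : ∀ K₀ : Subgroup G, Odd (Nat.card ↥K₀) → Q ≤ Subgroup.normalizer (K₀ : Set G) → K₀ = ⊥)
    (hU : pCore 2 G = ⊥) :
    (Subgroup.normalClosure ({z} : Set G) = generalizedFittingSubgroup G ∧ IsSimpleGroup ↥(Subgroup.normalClosure ({z} : Set G)) ∧ ¬ IsMulCommutative ↥(Subgroup.normalClosure ({z} : Set G))) ∨ (Subgroup.normalClosure ({z} : Set G) = generalizedFittingSubgroup G ∧ ∃ (L : Subgroup G) (u : G), u ∈ Q ∧ IsSimpleGroup ↥L ∧ ¬ IsMulCommutative ↥L ∧ L ⊓ (L).map (MulAut.conj u).toMonoidHom = ⊥ ∧ (∀ x ∈ L, ∀ y ∈ (L).map (MulAut.conj u).toMonoidHom, x * y = y * x) ∧ L ⊔ (L).map (MulAut.conj u).toMonoidHom = Subgroup.normalClosure ({z} : Set G) ∧ ∃ z₁ ∈ L, z = z₁ * (u * z₁ * u⁻¹) ∧ (∃ R : Sylow 2 ↥L, (R : Subgroup ↥L) = (Subgroup.centralizer ({z₁} : Set G)).subgroupOf L ∧ (frattini ↥(R : Subgroup ↥L)).map ((L.subtype).comp (R : Subgroup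 ↥L).subtype) ≤ Subgroup.zpowers z₁) ∧ Q ≠ (Cfsg.pCore 2 ↥(Subgroup.centralizer ({z} : Set G))).map (Subgroup.centralizer ({z} : Set G)).subtype) := by
  classical
  have hF2 : Fact (Nat.Prime 2) := ⟨Nat.prime_two⟩
  have hfit : fittingSubgroup G = ⊥ := by rw [fitting_eq hodd, hU]
  have hFs : generalizedFittingSubgroup G = layer G := by
    rw [generalizedFittingSubgroup, hfit, sup_bot_eq]
  have hzz := hL.sq
  have hz1 := hL.ne_one
  have hzi : z⁻¹ = z := inv_eq_of_mul_eq_one_left hzz
  have hEne : layer G ≠ ⊥ := by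
    intro hb
    have h1 := Cfsg.Agent.Lib.Components.GenFitting.centralizer_generalizedFitting_le (G := G)
    rw [hFs, hb] at h1
    have h2 : z ∈ Subgroup.centralizer ((⊥ : Subgroup G) : Set G) := by
      rw [Subgroup.mem_centralizer_iff]
      intro h hh
      have : h = 1 := by simpa using hh
      rw [this]; group
    have h3 := h1 h2
    rw [Subgroup.mem_bot] at h3
    exact hz1 h3
  have hzE : z ∈ layer G := by
    by_contra h
    exact hEne (eq_bot_of_notMem hL hodd inferInstance h)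
  -- `M = E`
  have hMeq : Subgroup.normalClosure ({z} : Set G) = generalizedFittingSubgroup G := by
    rw [hFs]
    apply le_antisymm
    · exact Subgroup.normalClosure_le_normal (by simpa using hzE)
    · apply sSup_le
      intro K hK
      rcases component_le_or_commutator_eq_bot hK (Subgroup.normalClosure_normal (s := ({z} : Set G))).isSubnormal with h | h
      · exact h
      · exfalso
        apply no_comp hL hK
        intro k hk
        have h1 : ⁅k, z⁆ ∈ ⁅K, Subgroup.normalClosure ({z} : Set G)⁆ :=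
          Subgroup.commutator_mem_commutator hk (Subgroup.subset_normalClosure (by simp))
        rw [h, Subgroup.mem_bot, commutatorElement_eq_one_iff_commute] at h1
        exact h1
  obtain ⟨L, hLc⟩ : ∃ L : Subgroup G, IsComponent L := by
    by_contra hcon
    push Not at hcon
    apply hEne
    rw [layer, sSup_eq_bot]
    intro K hK
    exact absurd hK (hcon K)
  -- conjugates
  have hcjc : ∀ (g : G) {K : Subgroup G}, IsComponent K → IsComponent (cj g K) := fun g K hK => isComponent_conj g hK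
  -- the orbit
  let Ω : Set (Subgroup G) := {K | ∃ q ∈ Q, K = cj q L}
  have hΩ : ∀ K ∈ Ω, IsComponent K := by
    rintro K ⟨q, -, rfl⟩
    exact hcjc q hLc
  have hLΩ : L ∈ Ω := ⟨1, one_mem _, (cj_one L).symm⟩
  have hqA : ∀ q ∈ Q, ∀ a ∈ sSup Ω, q * a * q⁻¹ ∈ sSup Ω := by
    intro q hq a ha
    have hle : sSup Ω ≤ (sSup Ω).comap (MulAut.conj q).toMonoidHom := by
      apply sSup_le
      rintro K ⟨q', hq', rfl⟩ x hx
      have h1 : q * x * q⁻¹ ∈ cj q (cj q' L) := conj_mem_cj hx
      rw [← cj_mul] at h1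
      exact (le_sSup ⟨q * q', mul_mem hq hq', rfl⟩ : cj (q * q') L ≤ sSup Ω) h1
    exact hle ha
  have hqB : ∀ q ∈ Q, ∀ b ∈ compl Ω, q * b * q⁻¹ ∈ compl Ω := by
    intro q hq b hb
    have hle : compl Ω ≤ (compl Ω).comap (MulAut.conj q).toMonoidHom := by
      apply sSup_le
      rintro K ⟨hK, hKn⟩ x hx
      have h1 : q * x * q⁻¹ ∈ cj q K := conj_mem_cj hx
      refine (le_sSup ⟨hcjc q hK, ?_⟩ : cj q K ≤ compl Ω) h1
      rintro ⟨q', hq', he⟩
      apply hKn
      refine ⟨q⁻¹ * q', mul_mem (inv_mem hq) hq', ?_⟩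
      rw [cj_mul, ← he, ← cj_mul]
      simp [cj_one]
    exact hle hb
  -- transitivity
  have htrans : ∀ K, IsComponent K → K ∈ Ω := by
    intro K hK
    by_contra hKn
    obtain ⟨a, ha, b, hb, hab⟩ := exists_dec hfit hΩ hzE
    have hfix : ∀ q ∈ Q, a * q = q * a := by
      intro q hq
      have h1 : (q * a * q⁻¹) * (q * b * q⁻¹) = a * b := by
        have e : (q * a * q⁻¹) * (q * b * q⁻¹) = q * (a * b) * q⁻¹ := by group
        rw [e, hab, hL.central q hq]; group
      have h2 := (unique_of (fun x h1 h2 => inter_dec hfit hΩ h1 h2) (hqA q hq a ha) ha (hqB q hq b hb) hb h1).1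
      calc a * q = (q * a * q⁻¹) * q := by rw [h2]
        _ = q * a := by group
    have hLA : L ≤ sSup Ω := le_sSup hLΩ
    rcases hL.cent a hfix with h1 | h1
    · -- `z = b`
      rw [h1, one_mul] at hab
      subst hab
      apply no_comp hL hLc
      intro k hk
      exact comm_dec hfit hΩ (hLA hk) hb
    · rw [h1] at hab
      have hb1 : b = 1 := by simpa using hab
      rw [h1] at ha
      apply no_comp hL hK
      intro k hk
      exact (comm_dec hfit hΩ ha ((le_sSup ⟨hK, hKn⟩ : K ≤ compl Ω) hk)).symm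
  have hsimple := simple_comp hfit hLc
  have hncL := not_comm_comp hfit hLc
  by_cases hall : ∀ q ∈ Q, cj q L = L
  · -- one component
    left
    have hEL : layer G = L := by
      apply le_antisymm
      · apply sSup_le
        intro K hK
        obtain ⟨q, hq, rfl⟩ := htrans K hK
        rw [hall q hq]
      · exact le_sSup hLc
    rw [hMeq, hFs, hEL]
    exact ⟨rfl, hsimple, hncL⟩
  right
  refine ⟨hMeq, ?_⟩
  push Not at hall
  obtain ⟨u, hu, huL⟩ := hall
  refine ⟨L, u, hu, hsimple, hncL, ?_⟩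
  -- `z` normalizes components.
  have hsing : ∀ K : Subgroup G, IsComponent K → ∀ K' ∈ ({K} : Set (Subgroup G)), IsComponent K' := by
    intro K hK K' hK'
    rw [hK']; exact hK
  have hzN : ∀ K : Subgroup G, IsComponent K → ∀ k ∈ K, z * k * z⁻¹ ∈ K := by
    intro K hK k hk
    obtain ⟨a, ha, b, hb, hab⟩ := exists_dec hfit (hsing K hK) hzE
    rw [sSup_singleton] at ha
    have h1 : k * b = b * k := comm_dec hfit (hsing K hK) (by rw [sSup_singleton]; exact hk) hb
    have e : z * k * z⁻¹ = a * k * a⁻¹ := by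
      rw [← hab]
      calc a * b * k * (a * b)⁻¹ = a * (b * k) * b⁻¹ * a⁻¹ := by group
        _ = a * (k * b) * b⁻¹ * a⁻¹ := by rw [h1]
        _ = a * k * a⁻¹ := by group
    rw [e]
    exact mul_mem (mul_mem ha hk) (inv_mem ha)
  have hcjz : ∀ K : Subgroup G, IsComponent K → cj z K = K := by
    intro K hK
    ext x
    rw [mem_map_conj, hzi]
    constructor
    · intro hx
      have := hzN K hK _ hx
      have e : z * (z * x * z) * z⁻¹ = x := by
        rw [hzi]
        calc z * (z * x * z) * z = (z * z) * x * (z * z) := by group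
          _ = x := by rw [hzz]; group
      rwa [e] at this
    · intro hx
      have := hzN K hK _ hx
      rwa [hzi] at this
  -- notation
  set L' := cj u L with hL'
  have hL'c : IsComponent L' := hcjc u hLc
  have hne : L' ≠ L := huL
  have hne' : L ≠ L' := hne.symm
  let B₁ := compl ({L} : Set (Subgroup G))
  have hB₁ : ∀ K, IsComponent K → K ≠ L → K ≤ B₁ := fun K hK hKL => le_sSup ⟨hK, hKL⟩
  have hs𝒜 := hsing L hLc
  have hcomB : ∀ {a b : G}, a ∈ L → b ∈ B₁ → a * b = b * a := by
    intro a b ha hb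
    exact comm_dec hfit hs𝒜 (by rw [sSup_singleton]; exact ha) hb
  have hiB : ∀ x ∈ L, x ∈ B₁ → x = 1 := by
    intro x ha hb
    exact inter_dec hfit hs𝒜 (by rw [sSup_singleton]; exact ha) hb
  obtain ⟨z₁, hz₁, w, hw, hzw⟩ : ∃ z₁ ∈ L, ∃ w ∈ B₁, z₁ * w = z := by
    have := exists_dec hfit hs𝒜 hzE
    rwa [sSup_singleton] at this
  have huniq : ∀ {a a' b b' : G}, a ∈ L → a' ∈ L → b ∈ B₁ → b' ∈ B₁ → a * b = a' * b' → a = a' ∧ b = b' :=
    fun ha ha' hb hb' h => unique_of hiB ha ha' hb hb' h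
  have hz₁z₁ : z₁ * z₁ = 1 := by
    have h1 : (z₁ * z₁) * (w * w) = 1 * 1 := by
      calc (z₁ * z₁) * (w * w) = z₁ * (z₁ * w) * w := by group
        _ = z₁ * (w * z₁) * w := by rw [hcomB hz₁ hw]
        _ = (z₁ * w) * (z₁ * w) := by group
        _ = 1 * 1 := by rw [hzw, hzz, one_mul]
    exact (huniq (mul_mem hz₁ hz₁) (one_mem _) (mul_mem hw hw) (one_mem _) h1).1
  have hz₁1 : z₁ ≠ 1 := by
    rintro rfl
    rw [one_mul] at hzw
    subst hzw
    apply no_comp hL hLc
    intro k hk
    exact hcomB hk hw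
  -- The subgroup `X`
  have hXz₁ : ∀ l ∈ L, l * z = z * l ↔ l * z₁ = z₁ * l := by
    intro l hl
    have h1 : l * w = w * l := hcomB hl hw
    constructor
    · intro h2
      have h3 : (l * z₁ * l⁻¹) * w = z₁ * w := by
        calc (l * z₁ * l⁻¹) * w = l * z₁ * (l⁻¹ * w) := by group
          _ = l * z₁ * (w * l⁻¹) := by rw [(show Commute l w from h1).inv_left.eq]
          _ = l * (z₁ * w) * l⁻¹ := by group
          _ = l * z * l⁻¹ := by rw [hzw]
          _ = z := by rw [h2]; group
          _ = z₁ * w := hzw.symm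
      have h4 := (huniq (mul_mem (mul_mem hl hz₁) (inv_mem hl)) hz₁ hw hw h3).1
      calc l * z₁ = (l * z₁ * l⁻¹) * l := by group
        _ = z₁ * l := by rw [h4]
    · intro h2
      rw [← hzw]
      calc l * (z₁ * w) = (l * z₁) * w := by group
        _ = (z₁ * l) * w := by rw [h2]
        _ = z₁ * (l * w) := by group
        _ = z₁ * (w * l) := by rw [h1]
        _ = z₁ * w * l := by group
  have hL'B : L' ≤ B₁ := hB₁ L' hL'c hne
  -- The elements `a x`
  have ha : ∀ x ∈ L, x * z = z * x → x * (u * x⁻¹ * u⁻¹) ∈ Q := by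
    intro x hx hxz
    have h1 := hL.norm x hxz u hu
    have e : x * (u * x⁻¹ * u⁻¹) = (x * u * x⁻¹) * u⁻¹ := by group
    rw [e]
    exact mul_mem h1 (inv_mem hu)
  have hyL' : ∀ x ∈ L, u * x⁻¹ * u⁻¹ ∈ L' := fun x hx => conj_mem_cj (inv_mem hx)
  have hsq : ∀ x ∈ L, x * z = z * x → x * x = 1 ∨ x * x = z₁ := by
    intro x hx hxz
    have hax := ha x hx hxz
    set y := u * x⁻¹ * u⁻¹ with hy
    have hyB : y ∈ B₁ := hL'B (hyL' x hx)
    have e : (x * y) * (x * y) = (x * x) * (y * y) := by
      calc (x * y) * (x * y) = x * (y * x) * y := by group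
        _ = x * (x * y) * y := by rw [← hcomB hx hyB]
        _ = (x * x) * (y * y) := by group
    rcases hL.sq_mem _ hax with h1 | h1
    · left
      rw [e] at h1
      have h2 : (x * x) * (y * y) = 1 * 1 := by rw [h1, one_mul]
      exact (huniq (mul_mem hx hx) (one_mem _) (mul_mem hyB hyB) (one_mem _) h2).1
    · right
      rw [e, ← hzw] at h1
      exact (huniq (mul_mem hx hx) hz₁ (mul_mem hyB hyB) hw h1).1
  -- Sylow
  obtain ⟨T, hT⟩ := hL.isPGroup.exists_le_sylow
  have hTc := central_of_sylow hL T hT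
  let S₁ : Sylow 2 ↥L := Cfsg.Agent.Lib.Components.SylowSub.sylowOfSubnormal T hLc.1
  have hS₁ : ∀ s ∈ (S₁ : Subgroup ↥L), (s : G) * z = z * s := by
    intro s hs
    have hs' : s ∈ (T : Subgroup G).subgroupOf L := hs
    exact hTc _ (Subgroup.mem_subgroupOf.1 hs')
  have hnoS : (∀ x ∈ L, x * z = z * x → x = 1 ∨ x = z₁) → False := by
    intro hX
    refine no_small_sylow hsimple hncL S₁ ⟨z₁, hz₁⟩ ?_ (b := ⟨z₁, hz₁⟩) (fun h => hz₁1 (congrArg Subtype.val h)) (Subtype.ext hz₁z₁)
    intro p hp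
    rcases hX p p.2 (hS₁ p hp) with h | h
    · exact Or.inl (Subtype.ext h)
    · exact Or.inr (Subtype.ext h)
  -- u² normalizes
  have hu2 : ∀ K : Subgroup G, IsComponent K → cj (u * u) K = K := by
    intro K hK
    rcases hL.sq_mem u hu with h | h <;> rw [h]
    · exact cj_one K
    · exact hcjz K hK
  have hcomm_qu : ∀ q ∈ Q, ∀ K : Subgroup G, IsComponent K → cj (q * u) K = cj (u * q) K := by
    intro q hq K hK
    have h1 : q * u = (q * u * q⁻¹ * u⁻¹) * (u * q) := by group
    rw [h1, cj_mul]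
    rcases hL.comm q hq u hu with h | h <;> rw [h]
    · exact cj_one _
    · exact hcjz _ (hcjc _ hK)
  have huL' : cj u L' = L := by
    rw [hL', ← cj_mul]
    exact hu2 L hLc
  -- only `L` and `L'`
  have hthird : ∀ q ∈ Q, cj q L = L ∨ cj q L = L' := by
    intro q hq
    by_contra hcon
    push Not at hcon
    obtain ⟨hq1, hq2⟩ := hcon
    apply hnoS
    intro x hx hxz
    have hax := ha x hx hxz
    set y := u * x⁻¹ * u⁻¹ with hy
    have hyB : y ∈ B₁ := hL'B (hyL' x hx)
    -- the conjugates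
    have hq3 : cj q L' ≠ L := by
      intro h3
      rw [hL', ← cj_mul, hcomm_qu q hq L hLc, cj_mul] at h3
      apply hq2
      have h4 : cj u (cj u (cj q L)) = cj u L := by rw [h3]
      rw [← cj_mul, hu2 _ (hcjc q hLc)] at h4
      exact h4
    have h1 : q * x * q⁻¹ ∈ B₁ := hB₁ _ (hcjc q hLc) hq1 (conj_mem_cj hx)
    have h2 : q * y * q⁻¹ ∈ B₁ := hB₁ _ (hcjc q hL'c) hq3 (conj_mem_cj (hyL' x hx))
    have hk : (q * x * q⁻¹) * (q * y * q⁻¹) * y⁻¹ ∈ B₁ := mul_mem (mul_mem h1 h2) (inv_mem hyB)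
    set k := (q * x * q⁻¹) * (q * y * q⁻¹) * y⁻¹ with hkdef
    have hb : q * (x * y) * q⁻¹ * (x * y)⁻¹ = x⁻¹ * k := by
      have hxy : x⁻¹ * y⁻¹ = y⁻¹ * x⁻¹ := by
        have := hcomB hx hyB
        exact ((show Commute x y from this).inv_inv).eq
      have hxk : x⁻¹ * k = k * x⁻¹ := hcomB (inv_mem hx) hk
      rw [hxk, hkdef, mul_inv_rev]
      group
    rcases hL.comm q hq _ hax with h3 | h3
    · left
      rw [hb] at h3
      have h4 : x⁻¹ * k = 1 * 1 := by rw [h3, one_mul]
      have h5 := (huniq (inv_mem hx) (one_mem _) hk (one_mem _) h4).1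
      simpa using h5
    · right
      rw [hb, ← hzw] at h3
      have h5 := (huniq (inv_mem hx) hz₁ hk hw h3).1
      have h6 : z₁⁻¹ = z₁ := inv_eq_of_mul_eq_one_left hz₁z₁
      rw [← h6, ← h5, inv_inv]
  have hcomps : ∀ K, IsComponent K → K = L ∨ K = L' := by
    intro K hK
    obtain ⟨q, hq, rfl⟩ := htrans K hK
    exact hthird q hq
  have hB₁L' : B₁ = L' := by
    apply le_antisymm
    · apply sSup_le
      rintro K ⟨hK, hKn⟩
      rcases hcomps K hK with h | h
      · exact absurd h hKn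
      · rw [h]
    · exact hL'B
  rw [hB₁L'] at hw hcomB hiB huniq
  have hzwc : z₁ * w = w * z₁ := hcomB hz₁ hw
  -- `z = z₁ z₁^u`
  have hzz₂ : w = u * z₁ * u⁻¹ := by
    have h1 : (u * w * u⁻¹) * (u * z₁ * u⁻¹) = z₁ * w := by
      have e : (u * w * u⁻¹) * (u * z₁ * u⁻¹) = u * (w * z₁) * u⁻¹ := by group
      rw [e, ← hzwc, hzw, hL.central u hu]; group
    have hw' : u * w * u⁻¹ ∈ L := by
      have : u * w * u⁻¹ ∈ cj u L' := conj_mem_cj hw
      rwa [huL'] at this
    exact (huniq hw' hz₁ (conj_mem_cj hz₁) hw h1).2.symm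
  have hLeq : L ⊔ L' = Subgroup.normalClosure ({z} : Set G) := by
    rw [hMeq, hFs]
    apply le_antisymm
    · exact sup_le (le_sSup hLc) (le_sSup hL'c)
    · apply sSup_le
      intro K hK
      rcases hcomps K hK with h | h <;> rw [h]
      · exact le_sup_left
      · exact le_sup_right
  have hwL : w ∉ L := by
    intro h
    have := hiB w h hw
    rw [this, mul_one] at hzw
    apply no_comp hL hL'c
    intro k hk
    rw [← hzw]
    exact (hcomB hz₁ hk).symm
  have hzL : z ∉ L := by
    intro h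
    apply hwL
    have : w = z₁⁻¹ * z := by rw [← hzw]; group
    rw [this]
    exact mul_mem (inv_mem hz₁) h
  refine ⟨?_, ?_, hLeq, z₁, hz₁, ?_, ?_, ?_⟩
  · rw [eq_bot_iff]
    intro x hx
    exact hiB x hx.1 hx.2
  · intro x hx y hy
    exact hcomB hx hy
  · rw [← hzz₂, hzw]
  · -- the Sylow subgroup
    have hX2 : IsPGroup 2 ↥((Subgroup.centralizer ({z₁} : Set G)).subgroupOf L) := by
      intro x
      refine ⟨2, ?_⟩
      have hx1 : ((x : ↥L) : G) * z₁ = z₁ * ((x : ↥L) : G) := by
        have := Subgroup.mem_subgroupOf.1 x.2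
        rw [Subgroup.mem_centralizer_iff] at this
        exact (this z₁ rfl).symm
      have hx2 := hsq _ (x : ↥L).2 ((hXz₁ _ (x : ↥L).2).2 hx1)
      apply Subtype.ext
      apply Subtype.ext
      simp only [Subgroup.coe_pow, Subgroup.coe_one]
      have e : (((x : ↥L) : G)) ^ 2 ^ 2 = (((x : ↥L) : G) * ((x : ↥L) : G)) * (((x : ↥L) : G) * ((x : ↥L) : G)) := by
        rw [show 2 ^ 2 = 4 from rfl]
        simp only [pow_succ, pow_zero, one_mul, mul_assoc]
      rw [e]
      rcases hx2 with h | h <;> rw [h]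
      · simp
      · exact hz₁z₁
    have hS₁le : (S₁ : Subgroup ↥L) ≤ (Subgroup.centralizer ({z₁} : Set G)).subgroupOf L := by
      intro s hs
      rw [Subgroup.mem_subgroupOf, Subgroup.mem_centralizer_iff]
      rintro _ rfl
      exact ((hXz₁ _ s.2).1 (hS₁ s hs)).symm
    have hReq : (S₁ : Subgroup ↥L) = (Subgroup.centralizer ({z₁} : Set G)).subgroupOf L :=
      (S₁.is_maximal' hX2 hS₁le).symm
    refine ⟨S₁, hReq, ?_⟩
    -- Frattini
    have hmemR : ∀ r : ↥(S₁ : Subgroup ↥L), ((r : ↥L) : G) * z₁ = z₁ * ((r : ↥L) : G) := by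
      intro r
      have h0 : (r : ↥L) ∈ (Subgroup.centralizer ({z₁} : Set G)).subgroupOf L := hReq.le r.2
      rw [Subgroup.mem_subgroupOf, Subgroup.mem_centralizer_iff] at h0
      exact (h0 z₁ rfl).symm
    have hsqR : ∀ r : ↥(S₁ : Subgroup ↥L), ((r : ↥L) : G) * ((r : ↥L) : G) = 1 ∨ ((r : ↥L) : G) * ((r : ↥L) : G) = z₁ := by
      intro r
      exact hsq _ (r : ↥L).2 ((hXz₁ _ (r : ↥L).2).2 (hmemR r))
    let φ : ↥(S₁ : Subgroup ↥L) →* G := (L.subtype).comp (S₁ : Subgroup ↥L).subtype
    let N₀ : Subgroup ↥(S₁ : Subgroup ↥L) := (Subgroup.zpowers z₁).comap φ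
    have hmemN₀ : ∀ r, r ∈ N₀ ↔ ((r : ↥L) : G) = 1 ∨ ((r : ↥L) : G) = z₁ := by
      intro r
      show φ r ∈ Subgroup.zpowers z₁ ↔ _
      constructor
      · exact Cfsg.Agent.Lib.LargeExtra.Comp.mem_zpowers_invol' hz₁z₁
      · rintro (h | h)
        · show ((r : ↥L) : G) ∈ _
          rw [h]; exact one_mem _
        · show ((r : ↥L) : G) ∈ _
          rw [h]; exact Subgroup.mem_zpowers z₁
    have hN₀n : N₀.Normal := by
      constructor
      intro n hn g
      rw [hmemN₀] at hn ⊢
      have hg := hmemR g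
      simp only [Subgroup.coe_mul, Subgroup.coe_inv]
      rcases hn with h | h
      · left
        rw [h]; group
      · right
        rw [h, hg]; group
    have hcommN : commutator ↥(S₁ : Subgroup ↥L) ≤ N₀ := by
      rw [commutator_eq_closure, Subgroup.closure_le]
      rintro _ ⟨a, b, rfl⟩
      rw [SetLike.mem_coe, hmemN₀]
      have hA := hsqR a
      have hB := hsqR b
      have hAB := hsqR (a * b)
      simp only [Subgroup.coe_mul] at hAB
      simp only [commutatorElement_def, Subgroup.coe_mul, Subgroup.coe_inv]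
      set A := ((a : ↥L) : G)
      set B := ((b : ↥L) : G)
      have hAz := hmemR a
      have hBz := hmemR b
      -- all squares are central
      have hAA : ∀ c : ↥(S₁ : Subgroup ↥L), (A * A) * ((c : ↥L) : G) = ((c : ↥L) : G) * (A * A) := by
        intro c
        rcases hA with h | h <;> rw [h]
        · simp
        · exact (hmemR c).symm
      have hBB : ∀ c : ↥(S₁ : Subgroup ↥L), (B * B) * ((c : ↥L) : G) = ((c : ↥L) : G) * (B * B) := by
        intro c
        rcases hB with h | h <;> rw [h]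
        · simp
        · exact (hmemR c).symm
      have hid : A * B * A⁻¹ * B⁻¹ = ((A * B) * (A * B)) * (A * A)⁻¹ * (B * B)⁻¹ := by
        have h1 : (A * A)⁻¹ * B = B * (A * A)⁻¹ := by
          have := hAA b
          exact ((show Commute (A * A) B from this).inv_left).eq
        calc A * B * A⁻¹ * B⁻¹ = (A * B) * (A * (A * A)⁻¹) * B⁻¹ := by group
          _ = (A * B) * A * ((A * A)⁻¹ * B) * B⁻¹ * B⁻¹ := by group
          _ = (A * B) * A * (B * (A * A)⁻¹) * B⁻¹ * B⁻¹ := by rw [h1]
          _ = _ := by group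
      rw [hid]
      have hz₁i : z₁⁻¹ = z₁ := inv_eq_of_mul_eq_one_left hz₁z₁
      rcases hAB with h1 | h1 <;> rcases hA with h2 | h2 <;> rcases hB with h3 | h3 <;> rw [h1, h2, h3] <;>
        simp [hz₁i, hz₁z₁]
    have hpowN : ∀ r : ↥(S₁ : Subgroup ↥L), r ^ 2 ∈ N₀ := by
      intro r
      rw [hmemN₀, pow_two]
      simpa using hsqR r
    have hfr := Cfsg.Agent.Lib.PGroups.Basic.frattini_le_of_normal N₀ hcommN hpowN
    rw [Subgroup.map_le_iff_le_comap]
    exact hfr
  · -- `Q ≠ O₂(C(z))`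
    intro hQeq
    apply hnoS
    -- all elements of `E ∩ C(z)` are in `Q`.
    have hbigP : IsPGroup 2 ↥((layer G).subgroupOf (Subgroup.centralizer ({z} : Set G))) := by
      intro e
      refine ⟨2, ?_⟩
      have he1 : ((e : ↥(Subgroup.centralizer ({z} : Set G))) : G) ∈ layer G := Subgroup.mem_subgroupOf.1 e.2
      have he2 : ((e : ↥(Subgroup.centralizer ({z} : Set G))) : G) * z = z * ((e : ↥(Subgroup.centralizer ({z} : Set G))) : G) := by
        have := (e : ↥(Subgroup.centralizer ({z} : Set G))).2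
        rw [Subgroup.mem_centralizer_iff] at this
        exact (this z rfl).symm
      set e₀ := ((e : ↥(Subgroup.centralizer ({z} : Set G))) : G) with he₀
      obtain ⟨a, ha', b, hb', hab⟩ : ∃ a ∈ L, ∃ b ∈ L', a * b = e₀ := by
        have := exists_dec hfit hs𝒜 he1
        rw [sSup_singleton] at this
        change ∃ a ∈ L, ∃ b ∈ B₁, a * b = e₀ at this
        rwa [hB₁L'] at this
      have hzb : z * b * z⁻¹ ∈ L' := hzN L' hL'c b hb'
      have hza : z * a * z⁻¹ ∈ L := hzN L hLc a ha'
      have h1 : (z * a * z⁻¹) * (z * b * z⁻¹) = a * b := by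
        have e' : (z * a * z⁻¹) * (z * b * z⁻¹) = z * (a * b) * z⁻¹ := by group
        rw [e', hab, ← he2]; group
      obtain ⟨h2, h3⟩ := huniq hza ha' hzb hb' h1
      have haz : a * z = z * a := by
        calc a * z = (z * a * z⁻¹) * z := by rw [h2]
          _ = z * a := by group
      have hbz : b * z = z * b := by
        calc b * z = (z * b * z⁻¹) * z := by rw [h3]
          _ = z * b := by group
      have h4 : a ^ 2 ^ 2 = 1 := by
        have e' : a ^ 2 ^ 2 = (a * a) * (a * a) := by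
          rw [show 2 ^ 2 = 4 from rfl]
          simp only [pow_succ, pow_zero, one_mul, mul_assoc]
        rw [e']
        rcases hsq a ha' haz with h | h <;> rw [h]
        · simp
        · exact hz₁z₁
      have h5 : b ^ 2 ^ 2 = 1 := by
        have hb0 : u⁻¹ * b * u ∈ L := by
          have h6 := (mem_map_conj (g := u) (a := b) (P := L)).1 hb'
          exact h6
        have hb1 : (u⁻¹ * b * u) * z = z * (u⁻¹ * b * u) := by
          have h7 : u * z = z * u := hL.central u hu
          have h8 : u⁻¹ * z = z * u⁻¹ := (show Commute u z from h7).inv_left.eq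
          calc (u⁻¹ * b * u) * z = u⁻¹ * b * (u * z) := by group
            _ = u⁻¹ * b * (z * u) := by rw [h7]
            _ = u⁻¹ * (b * z) * u := by group
            _ = u⁻¹ * (z * b) * u := by rw [hbz]
            _ = (u⁻¹ * z) * b * u := by group
            _ = (z * u⁻¹) * b * u := by rw [h8]
            _ = z * (u⁻¹ * b * u) := by group
        have e' : (u⁻¹ * b * u) ^ 2 ^ 2 = ((u⁻¹ * b * u) * (u⁻¹ * b * u)) * ((u⁻¹ * b * u) * (u⁻¹ * b * u)) := by
          rw [show 2 ^ 2 = 4 from rfl]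
          simp only [pow_succ, pow_zero, one_mul, mul_assoc]
        have h9 : (u⁻¹ * b * u) ^ 2 ^ 2 = 1 := by
          rw [e']
          rcases hsq _ hb0 hb1 with h | h <;> rw [h]
          · simp
          · exact hz₁z₁
        have h10 : u⁻¹ * b ^ 2 ^ 2 * u = 1 := by
          have : u⁻¹ * b ^ 2 ^ 2 * u⁻¹⁻¹ = (u⁻¹ * b * u⁻¹⁻¹) ^ 2 ^ 2 := conj_pow.symm
          rw [inv_inv] at this
          rw [this, h9]
        have : b ^ 2 ^ 2 = u * (u⁻¹ * b ^ 2 ^ 2 * u) * u⁻¹ := by group
        rw [this, h10]; group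
      apply Subtype.ext
      apply Subtype.ext
      simp only [Subgroup.coe_pow, Subgroup.coe_one]
      show e₀ ^ 2 ^ 2 = 1
      rw [← hab, (show Commute a b from hcomB ha' hb').mul_pow, h4, h5, one_mul]
    have hnormal : ((layer G).subgroupOf (Subgroup.centralizer ({z} : Set G))).Normal := inferInstance
    have hbigle := Cfsg.Agent.Lib.Core.Basic.le_pCore hnormal hbigP
    have hXQ : ∀ x ∈ L, x * z = z * x → x ∈ Q := by
      intro x hx hxz
      rw [hQeq]
      have hxC : x ∈ Subgroup.centralizer ({z} : Set G) := by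
        rw [Subgroup.mem_centralizer_iff]
        rintro _ rfl
        exact hxz.symm
      exact ⟨⟨x, hxC⟩, hbigle (Subgroup.mem_subgroupOf.2 (Cfsg.Agent.Lib.Components.Basic.le_layer_of_isComponent hLc hx)), rfl⟩
    have hz₁z : z₁ * z = z * z₁ := by
      rw [hXz₁ z₁ hz₁]
    have hz₁Q := hXQ z₁ hz₁ hz₁z
    -- The centralizer of `z₁` in `Q` normalizes `L`.
    have hq₀ : ∀ q ∈ Q, q * z₁ = z₁ * q → cj q L = L := by
      intro q hq hqz
      rcases hthird q hq with h | h
      · exact h
      · exfalso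
        have h1 : q * z₁ * q⁻¹ ∈ cj q L := conj_mem_cj hz₁
        rw [h] at h1
        have h2 : q * z₁ * q⁻¹ = z₁ := by rw [hqz]; group
        rw [h2] at h1
        exact hz₁1 (hiB z₁ hz₁ h1)
    have hYle : Subgroup.closure ({z₁, z} : Set G) ≤ Q := by
      rw [Subgroup.closure_le]
      rintro _ (rfl | rfl)
      · exact hz₁Q
      · exact hL.mem
    intro x hx hxz
    have hxQ := hXQ x hx hxz
    by_cases hxY : x ∈ Subgroup.closure ({z₁, z} : Set G)
    · rw [mem_closure_pair hz₁z₁ hzz (hL.central z₁ hz₁Q)] at hxY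
      rcases hxY with h | h | h | h
      · exact Or.inl h
      · exact Or.inr h
      · exfalso
        rw [h] at hx
        exact hzL hx
      · exfalso
        rw [h] at hx
        apply hzL
        have : z = z₁⁻¹ * (z₁ * z) := by group
        rw [this]
        exact mul_mem (inv_mem hz₁) hx
    · exfalso
      obtain ⟨q, hq, hq1, hq2⟩ := hL.toSettingAt.exists_centralizing _ hYle (Subgroup.subset_closure (by simp)) hxQ hxY
      have hqz₁ := hq1 z₁ (Subgroup.subset_closure (by simp))
      have h1 := hq₀ q hq hqz₁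
      have h2 : q * x * q⁻¹ ∈ L := by
        have : q * x * q⁻¹ ∈ cj q L := conj_mem_cj hx
        rwa [h1] at this
      rw [hq2] at h2
      apply hzL
      have : z = (z * x) * x⁻¹ := by group
      rw [this]
      exact mul_mem h2 (inv_mem hx)

end Cfsg.Agent.Lib.LargeExtra.Comp
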