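import Mathlib
import Cfsg.Agent.Lib.PGroups.Special
import Cfsg.Agent.Lib.Core.Basic
import Cfsg.Prelude.Def_MonsterType

/-!
An abstract package: an involution `z`, an extraspecial subgroup `Q` of order `2^7` and a complement `K`
to `Q` in the centralizer of `z`, isomorphic to `SL₃(2)`.  It is invariant under automorphisms.
-/

set_option autoImplicit false
set_option linter.unusedSectionVars false
set_option linter.unusedVariables false
set_option linter.style.longLine false
set_option linter.unnecessarySimpa false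
set_option linter.style.haveILetI false

namespace Cfsg.Agent.Lib.LargeExtra.OctadSet

open Cfsg Subgroup
open scoped commutatorElement

variable {A : Type*} [Group A]

/-- The package. -/
structure OS (z : A) (Q K E : Subgroup A) : Prop where
  zz : z * z = 1
  z1 : z ≠ 1
  zQ : z ∈ Q
  qz : ∀ x ∈ Q, x * z = z * x
  sq : ∀ x ∈ Q, x * x = 1 ∨ x * x = z
  cm : ∀ x ∈ Q, ∀ y ∈ Q, x * y = y * x ∨ x * y = z * (y * x)
  cen : ∀ x : A, (∀ y ∈ Q, x * y = y * x) → x = 1 ∨ x = z
  nc : ∃ x ∈ Q, ∃ y ∈ Q, x * y ≠ y * x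
  cardQ : Nat.card Q = 128
  EQ : E ≤ Q
  Es : ∀ x ∈ E, x * x = 1
  cardE : Nat.card E = 16
  kz : ∀ k ∈ K, k * z = z * k
  QK : ∀ x ∈ Q, x ∈ K → x = 1
  fac : ∀ c : A, c * z = z * c → ∃ q ∈ Q, ∃ k ∈ K, c = q * k
  nrm : ∀ c : A, c * z = z * c → ∀ q ∈ Q, c * q * c⁻¹ ∈ Q
  iso : Nonempty (K ≃* Matrix.SpecialLinearGroup (Fin 3) (ZMod 2))
  core : ∀ k ∈ K, k ≠ 1 → ∃ h ∈ K, k * (h * k * h⁻¹) ≠ 1 ∧ (k * (h * k * h⁻¹)) ^ 3 = 1
  odd : ∀ K₁ : Subgroup A, Odd (Nat.card K₁) → Q ≤ normalizer (K₁ : Set A) → K₁ = ⊥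

theorem mem_mp (φ : A ≃* A) (Q : Subgroup A) {x : A} : x ∈ Q.map φ.toMonoidHom ↔ φ.symm x ∈ Q := by
  constructor
  · rintro ⟨q, hq, rfl⟩
    simpa using hq
  · intro h
    exact ⟨_, h, by simp⟩

theorem mp_mem (φ : A ≃* A) {Q : Subgroup A} {x : A} (h : x ∈ Q) : φ x ∈ Q.map φ.toMonoidHom :=
  ⟨x, h, rfl⟩

theorem OS.map {z : A} {Q K E : Subgroup A} (h : OS z Q K E) (φ : A ≃* A) :
    OS (φ z) (Q.map φ.toMonoidHom) (K.map φ.toMonoidHom) (E.map φ.toMonoidHom) := by
  have hs : ∀ x y : A, φ.symm (x * y) = φ.symm x * φ.symm y := fun x y => map_mul φ.symm x y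
  have hz : φ.symm (φ z) = z := by simp
  refine
    { zz := by rw [← map_mul, h.zz, map_one]
      z1 := by
        intro he
        exact h.z1 (by simpa using congrArg φ.symm he)
      zQ := mp_mem φ h.zQ
      qz := ?_
      sq := ?_
      cm := ?_
      cen := ?_
      nc := ?_
      cardQ := by rw [Subgroup.card_map_of_injective φ.injective]; exact h.cardQ
      EQ := Subgroup.map_mono h.EQ
      Es := ?_
      cardE := by rw [Subgroup.card_map_of_injective φ.injective]; exact h.cardE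
      kz := ?_
      QK := ?_
      fac := ?_
      nrm := ?_
      iso := ?_
      core := ?_
      odd := ?_ }
  · rintro _ ⟨x, hx, rfl⟩
    show φ x * φ z = φ z * φ x
    rw [← map_mul, ← map_mul, h.qz x hx]
  · rintro _ ⟨x, hx, rfl⟩
    show φ x * φ x = 1 ∨ φ x * φ x = φ z
    rw [← map_mul]
    rcases h.sq x hx with e | e <;> rw [e]
    · left; simp
    · right; rfl
  · rintro _ ⟨x, hx, rfl⟩ _ ⟨y, hy, rfl⟩
    show φ x * φ y = φ y * φ x ∨ φ x * φ y = φ z * (φ y * φ x)
    simp only [← map_mul]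
    rcases h.cm x hx y hy with e | e <;> rw [e]
    · left; trivial
    · right; trivial
  · intro x hx
    have h1 : ∀ y ∈ Q, φ.symm x * y = y * φ.symm x := by
      intro y hy
      have e := hx (φ y) (mp_mem φ hy)
      have e2 := congrArg φ.symm e
      simpa using e2
    rcases h.cen _ h1 with e | e
    · left
      simpa using congrArg φ e
    · right
      simpa using congrArg φ e
  · obtain ⟨x, hx, y, hy, hxy⟩ := h.nc
    refine ⟨φ x, mp_mem φ hx, φ y, mp_mem φ hy, ?_⟩
    rw [← map_mul, ← map_mul]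
    exact fun e => hxy (φ.injective e)
  · rintro _ ⟨x, hx, rfl⟩
    show φ x * φ x = 1
    rw [← map_mul, h.Es x hx, map_one]
  · rintro _ ⟨x, hx, rfl⟩
    show φ x * φ z = φ z * φ x
    rw [← map_mul, ← map_mul, h.kz x hx]
  · intro x hx hx'
    have := h.QK _ ((mem_mp φ Q).1 hx) ((mem_mp φ K).1 hx')
    simpa using congrArg φ this
  · intro c hc
    have h1 : φ.symm c * z = z * φ.symm c := by
      have e2 := congrArg φ.symm hc
      simpa using e2
    obtain ⟨q, hq, k, hk, he⟩ := h.fac _ h1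
    refine ⟨φ q, mp_mem φ hq, φ k, mp_mem φ hk, ?_⟩
    rw [← map_mul, ← he]
    simp
  · intro c hc q hq
    have h1 : φ.symm c * z = z * φ.symm c := by
      have e2 := congrArg φ.symm hc
      simpa using e2
    have h2 := h.nrm _ h1 _ ((mem_mp φ Q).1 hq)
    rw [mem_mp]
    simpa using h2
  · obtain ⟨e⟩ := h.iso
    exact ⟨(MulEquiv.subgroupMap φ K).symm.trans e⟩
  · rintro _ ⟨k, hk, rfl⟩ hk1
    have hk2 : k ≠ 1 := by
      rintro rfl
      exact hk1 (map_one _)
    obtain ⟨t, ht, h1, h2⟩ := h.core k hk hk2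
    refine ⟨φ t, mp_mem φ ht, ?_, ?_⟩
    · show φ k * (φ t * φ k * (φ t)⁻¹) ≠ 1
      rw [← map_inv, ← map_mul, ← map_mul, ← map_mul]
      intro e
      exact h1 (φ.injective (by rw [e, map_one]))
    · show (φ k * (φ t * φ k * (φ t)⁻¹)) ^ 3 = 1
      rw [← map_inv, ← map_mul, ← map_mul, ← map_mul, ← map_pow, h2, map_one]
  · intro K₁ hK₁ hn
    have h1 : K₁.map φ.symm.toMonoidHom = ⊥ := by
      apply h.odd
      · rw [Subgroup.card_map_of_injective φ.symm.injective]
        exact hK₁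
      · intro q hq
        rw [Subgroup.mem_normalizer_iff]
        intro x
        have h3 := (Subgroup.mem_normalizer_iff.1 (hn (mp_mem φ hq))) (φ x)
        have hm : ∀ y : A, y ∈ K₁.map φ.symm.toMonoidHom ↔ φ y ∈ K₁ := by
          intro y
          constructor
          · rintro ⟨w, hw, rfl⟩
            simpa using hw
          · intro hy
            exact ⟨_, hy, by simp⟩
        rw [hm, hm, h3]
        simp
    rw [eq_bot_iff]
    intro x hx
    have h2 : φ.symm x ∈ K₁.map φ.symm.toMonoidHom := ⟨x, hx, rfl⟩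
    rw [h1, Subgroup.mem_bot] at h2
    rw [Subgroup.mem_bot]
    simpa using congrArg φ h2

section main
variable [Finite A] {z : A} {Q K E : Subgroup A}

theorem OS.mem_cmap (h : OS z Q K E) {x : A} : x ∈ (center ↥Q).map Q.subtype ↔ x = 1 ∨ x = z := by
  constructor
  · rintro ⟨c, hc, rfl⟩
    apply h.cen
    intro y hy
    have := (Subgroup.mem_center_iff.1 hc) ⟨y, hy⟩
    exact (congrArg Subtype.val this).symm
  · rintro (rfl | rfl)
    · exact Subgroup.one_mem _
    · refine ⟨⟨x, h.zQ⟩, Subgroup.mem_center_iff.2 ?_, rfl⟩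
      intro y
      exact Subtype.ext (h.qz _ y.2)

theorem OS.card_center (h : OS z Q K E) : Nat.card (center ↥Q) = 2 := by
  have e1 : Nat.card (center ↥Q) = Nat.card ((center ↥Q).map Q.subtype) :=
    (Subgroup.card_map_of_injective Q.subtype_injective).symm
  rw [e1]
  have e : (((center ↥Q).map Q.subtype : Subgroup A) : Set A) = {1, z} := by
    ext x
    simp only [SetLike.mem_coe, h.mem_cmap, Set.mem_insert_iff, Set.mem_singleton_iff]
  show Nat.card (((center ↥Q).map Q.subtype : Subgroup A) : Set A) = 2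
  rw [Nat.card_coe_set_eq, e, Set.ncard_pair h.z1.symm]

theorem OS.extra (h : OS z Q K E) : IsExtraspecial 2 ↥Q := by
  haveI : Fact (Nat.Prime 2) := ⟨Nat.prime_two⟩
  have hzc : ∀ x : ↥Q, (x : A) = 1 ∨ (x : A) = z → x ∈ center ↥Q := by
    intro x hx
    have : (x : A) ∈ (center ↥Q).map Q.subtype := h.mem_cmap.2 hx
    obtain ⟨c, hc, he⟩ := this
    have : c = x := Subtype.ext he
    rwa [← this]
  have hE : Cfsg.Agent.Lib.PGroups.Special.ExtraLike 2 ↥Q := by
    refine ⟨?_, h.card_center, ?_, ?_⟩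
    · apply IsPGroup.of_card (n := 7)
      rw [h.cardQ]
      norm_num
    · intro x y
      apply hzc
      have e : ((⁅x, y⁆ : ↥Q) : A) = (x : A) * (y : A) * (x : A)⁻¹ * (y : A)⁻¹ := rfl
      rw [e]
      rcases h.cm x x.2 y y.2 with e1 | e1 <;> rw [e1]
      · left; group
      · right; group
    · intro x
      apply hzc
      have e : ((x ^ 2 : ↥Q) : A) = (x : A) * (x : A) := by
        rw [pow_two]; rfl
      rw [e]
      exact h.sq x x.2
  apply hE.isExtraspecial
  intro hc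
  obtain ⟨x, hx, y, hy, hxy⟩ := h.nc
  have := hc.is_comm.comm ⟨x, hx⟩ ⟨y, hy⟩
  exact hxy (congrArg Subtype.val this)

theorem OS.large (h : OS z Q K E) : IsLargeExtraspecial Q := by
  refine ⟨h.extra, ?_, ?_, h.odd⟩
  · ext x
    rw [h.mem_cmap, Subgroup.mem_centralizer_iff]
    constructor
    · intro hx
      apply h.cen
      intro y hy
      exact (hx y hy).symm
    · rintro (rfl | rfl) y hy
      · simp
      · exact (h.qz y hy)
  · intro x hx
    have hxz : x * z = z * x := by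
      have := (Subgroup.mem_centralizer_iff.1 hx) z (h.mem_cmap.2 (Or.inr rfl))
      exact this.symm
    rw [Subgroup.mem_normalizer_iff]
    intro y
    constructor
    · exact h.nrm x hxz y
    · intro hy
      have hxz' : x⁻¹ * z = z * x⁻¹ := by
        have : Commute x z := hxz
        exact this.inv_left.eq
      have := h.nrm x⁻¹ hxz' _ hy
      simpa [mul_assoc] using this

theorem OS.core_eq (h : OS z Q K E) :
    (pCore 2 ↥(centralizer ({z} : Set A))).map (centralizer ({z} : Set A)).subtype = Q := by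
  haveI hF : Fact (Nat.Prime 2) := ⟨Nat.prime_two⟩
  have hzm : ∀ c : A, c ∈ centralizer ({z} : Set A) ↔ c * z = z * c := by
    intro c
    rw [Subgroup.mem_centralizer_iff]
    constructor
    · intro hc
      exact (hc z rfl).symm
    · rintro hc _ rfl
      exact hc.symm
  have hQC : Q ≤ centralizer ({z} : Set A) := fun x hx => (hzm x).2 (h.qz x hx)
  have hKC : K ≤ centralizer ({z} : Set A) := fun x hx => (hzm x).2 (h.kz x hx)
  have hnorm : (Q.subgroupOf (centralizer ({z} : Set A))).Normal := by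
    refine ⟨?_⟩
    intro n hn c
    rw [Subgroup.mem_subgroupOf] at hn ⊢
    exact h.nrm c.1 ((hzm _).1 c.2) n.1 hn
  have hP : IsPGroup 2 ↥(Q.subgroupOf (centralizer ({z} : Set A))) := by
    apply IsPGroup.of_card (n := 7)
    rw [Nat.card_congr (Subgroup.subgroupOfEquivOfLe hQC).toEquiv, h.cardQ]
    norm_num
  have hle := Cfsg.Agent.Lib.Core.Basic.le_pCore hnorm hP
  have hPc : IsPGroup 2 ↥(pCore 2 ↥(centralizer ({z} : Set A))) :=
    Cfsg.Agent.Lib.Core.Basic.pCore_isPGroup
  have hnc : (pCore 2 ↥(centralizer ({z} : Set A))).Normal := pCore_normal _ _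
  apply le_antisymm
  · rintro _ ⟨r, hr, rfl⟩
    obtain ⟨q, hq, k, hk, he⟩ := h.fac r.1 ((hzm _).1 r.2)
    have hq' : (⟨q, hQC hq⟩ : ↥(centralizer ({z} : Set A))) ∈ pCore 2 ↥(centralizer ({z} : Set A)) :=
      hle (Subgroup.mem_subgroupOf.2 hq)
    have hk' : (⟨k, hKC hk⟩ : ↥(centralizer ({z} : Set A))) ∈ pCore 2 ↥(centralizer ({z} : Set A)) := by
      have e : (⟨k, hKC hk⟩ : ↥(centralizer ({z} : Set A))) = (⟨q, hQC hq⟩ : ↥(centralizer ({z} : Set A)))⁻¹ * r := by
        apply Subtype.ext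
        show k = q⁻¹ * r.1
        rw [he]
        group
      rw [e]
      exact mul_mem (inv_mem hq') hr
    have hk1 : k = 1 := by
      by_contra hk1
      obtain ⟨t, ht, h1, h2⟩ := h.core k hk hk1
      have ht' : (⟨t, hKC ht⟩ : ↥(centralizer ({z} : Set A))) * ⟨k, hKC hk⟩ * (⟨t, hKC ht⟩ : ↥(centralizer ({z} : Set A)))⁻¹ ∈ pCore 2 ↥(centralizer ({z} : Set A)) :=
        hnc.conj_mem _ hk' _
      have hy := mul_mem hk' ht'
      set y : ↥(centralizer ({z} : Set A)) := (⟨k, hKC hk⟩ : ↥(centralizer ({z} : Set A))) * ((⟨t, hKC ht⟩ : ↥(centralizer ({z} : Set A))) * ⟨k, hKC hk⟩ * (⟨t, hKC ht⟩ : ↥(centralizer ({z} : Set A)))⁻¹) with hydef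
      have hyv : (y : A) = k * (t * k * t⁻¹) := rfl
      obtain ⟨n, hn⟩ := hPc ⟨y, hy⟩
      have hn' : y ^ 2 ^ n = 1 := congrArg Subtype.val hn
      have hy3 : y ^ 3 = 1 := Subtype.ext (by
        show (y : A) ^ 3 = 1
        rw [hyv, h2])
      have hg : Nat.Coprime (2 ^ n) 3 := Nat.Coprime.pow_left _ (by norm_num)
      have hy1 : y = 1 := by
        have := (pow_gcd_eq_one (a := y) (m := 2 ^ n) (n := 3)).2 ⟨hn', hy3⟩
        rwa [hg, pow_one] at this
      apply h1
      rw [← hyv, hy1]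
      rfl
    have : (r : A) = q := by rw [he, hk1, mul_one]
    show (r : A) ∈ Q
    rw [this]
    exact hq
  · intro x hx
    exact ⟨⟨x, hQC hx⟩, hle (Subgroup.mem_subgroupOf.2 hx), rfl⟩

/-- Everything in the package's conclusion. -/
theorem OS.main (h : OS z Q K E) :
    IsExtraspecial 2 ↥Q ∧ Nat.card ↥Q = 2 ^ 7 ∧
      (∃ E : Subgroup A, E ≤ Q ∧ IsElementaryAbelian 2 E ∧ Nat.card ↥E = 2 ^ 4) ∧
      IsLargeExtraspecial Q ∧
      ∃ K : Subgroup A, K ≤ centralizer ({z} : Set A) ∧ Q ⊓ K = ⊥ ∧ Q ⊔ K = centralizer ({z} : Set A) ∧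
        Nonempty (↥K ≃* Matrix.SpecialLinearGroup (Fin 3) (ZMod 2)) := by
  have hzm : ∀ c : A, c ∈ centralizer ({z} : Set A) ↔ c * z = z * c := by
    intro c
    rw [Subgroup.mem_centralizer_iff]
    constructor
    · intro hc
      exact (hc z rfl).symm
    · rintro hc _ rfl
      exact hc.symm
  refine ⟨h.extra, by rw [h.cardQ]; norm_num, ⟨E, h.EQ, ⟨⟨⟨?_⟩⟩, ?_⟩, by rw [h.cardE]; norm_num⟩, h.large, K, ?_, ?_, ?_, h.iso⟩
  · intro x y
    apply Subtype.ext
    show (x : A) * y = y * x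
    have h1 := h.Es _ (mul_mem x.2 y.2)
    have hx := h.Es _ x.2
    have hy := h.Es _ y.2
    have hxi : (x : A)⁻¹ = x := inv_eq_of_mul_eq_one_left hx
    have hyi : (y : A)⁻¹ = y := inv_eq_of_mul_eq_one_left hy
    have h2 : (x : A) * y = ((x : A) * y)⁻¹ := (inv_eq_of_mul_eq_one_left h1).symm
    rw [h2, mul_inv_rev, hxi, hyi]
  · intro a ha
    rw [pow_two]
    exact h.Es a ha
  · intro x hx
    exact (hzm x).2 (h.kz x hx)
  · rw [eq_bot_iff]
    intro x hx
    rw [Subgroup.mem_bot]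
    exact h.QK x (Subgroup.mem_inf.1 hx).1 (Subgroup.mem_inf.1 hx).2
  · apply le_antisymm
    · apply sup_le
      · intro x hx
        exact (hzm x).2 (h.qz x hx)
      · intro x hx
        exact (hzm x).2 (h.kz x hx)
    · intro c hc
      obtain ⟨q, hq, k, hk, he⟩ := h.fac c ((hzm c).1 hc)
      rw [he]
      exact mul_mem (Subgroup.mem_sup_left hq) (Subgroup.mem_sup_right hk)

end main

end Cfsg.Agent.Lib.LargeExtra.OctadSet
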