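import Mathlib
import Cfsg.Agent.Lib.LargeExtra.Pair
import Cfsg.Prelude.Def_Solvable

/-!
Structure of the pair `Q`, `Q' = g Q g⁻¹` of large extraspecial subgroups with central involutions
`z ∈ Q'`, `y = g z g⁻¹ ∈ Q`.
-/

set_option autoImplicit false
set_option linter.unusedSectionVars false
set_option linter.unusedVariables false
set_option linter.style.longLine false
set_option linter.unusedSimpArgs false
set_option linter.unnecessarySimpa false

namespace Cfsg.Agent.Lib.LargeExtra.PairStruct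

open Cfsg.Agent.Lib.LargeExtra.Basic Cfsg.Agent.Lib.LargeExtra.Pair
open scoped commutatorElement

variable {G : Type*} [Group G] [Finite G]

/-- The `Q ⊓ C(v)` of the statements. -/
abbrev AA (P : Subgroup G) (v : G) : Subgroup G := P ⊓ Subgroup.centralizer ({v} : Set G)

theorem mem_AA {P : Subgroup G} {v a : G} : a ∈ AA P v ↔ a ∈ P ∧ a * v = v * a := by
  rw [Subgroup.mem_inf, Subgroup.mem_centralizer_iff]
  simp only [Set.mem_singleton_iff, forall_eq]
  exact and_congr_right (fun _ => eq_comm)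

/-- The pair of subgroups. -/
structure PS (Q Q' : Subgroup G) (z y g : G) : Prop where
  hQ : LX z Q
  hQ' : LX y Q'
  hg : g * z * g⁻¹ = y
  hQ'def : Q' = Q.map (MulAut.conj g).toMonoidHom
  hy : y ∈ Q
  hz : z ∈ Q'
  hne : y ≠ z

variable {Q Q' : Subgroup G} {z y g : G}

theorem PS.symm (h : PS Q Q' z y g) : PS Q' Q y z g⁻¹ where
  hQ := h.hQ'
  hQ' := h.hQ
  hg := by rw [← h.hg]; group
  hQ'def := by
    rw [h.hQ'def]
    ext a
    rw [mem_map_conj, mem_map_conj]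
    have e : g⁻¹ * (g⁻¹⁻¹ * a * g⁻¹) * g = a := by group
    rw [e]
  hy := h.hz
  hz := h.hy
  hne := h.hne.symm

namespace PS

variable (h : PS Q Q' z y g)
include h

theorem zz : z * z = 1 := h.hQ.sq
theorem yy : y * y = 1 := h.hQ'.sq
theorem z1 : z ≠ 1 := h.hQ.ne_one
theorem y1 : y ≠ 1 := h.hQ'.ne_one
theorem zy : z * y = y * z := (h.hQ.central y h.hy).symm
theorem zi : z⁻¹ = z := inv_eq_of_mul_eq_one_left h.zz
theorem yi : y⁻¹ = y := inv_eq_of_mul_eq_one_left h.yy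

theorem zyz : z * y * z = y := by rw [h.zy, mul_assoc, h.zz, mul_one]
theorem zy1 : z * y ≠ 1 := by
  intro h1
  apply h.hne
  have : z * (z * y) = z * 1 := by rw [h1]
  rw [← mul_assoc, h.zz, one_mul, mul_one] at this
  exact this
theorem zyz' : z * y ≠ z := by
  intro h1
  apply h.y1
  have : z * (z * y) = z * z := by rw [h1]
  rw [← mul_assoc, h.zz, one_mul] at this
  exact this
theorem zyy' : z * y ≠ y := by
  intro h1
  apply h.z1
  have : z * y * y = y * y := by rw [h1]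
  rw [mul_assoc, h.yy, mul_one] at this
  exact this

/-- Members of `A` normalize `Q'`. -/
theorem A_norm {a q : G} (ha : a ∈ AA Q y) (hq : q ∈ Q') : a * q * a⁻¹ ∈ Q' :=
  h.hQ'.norm a (mem_AA.1 ha).2 q hq

theorem A_z {a : G} (ha : a ∈ AA Q y) : a * z = z * a := h.hQ.central a (mem_AA.1 ha).1

theorem A_conj {a a' : G} (ha : a ∈ AA Q y) (ha' : a' ∈ AA Q y) : a * a' * a⁻¹ ∈ AA Q y := by
  obtain ⟨h1, h2⟩ := mem_AA.1 ha
  obtain ⟨h3, h4⟩ := mem_AA.1 ha'
  exact mul_mem (mul_mem ha ha') (inv_mem ha)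

/-- Members of `A` normalize `B`. -/
theorem A_norm_B {a b : G} (ha : a ∈ AA Q y) (hb : b ∈ AA Q' z) : a * b * a⁻¹ ∈ AA Q' z := by
  obtain ⟨h1, h2⟩ := mem_AA.1 hb
  have h3 := h.A_z ha
  rw [mem_AA]
  refine ⟨h.A_norm ha h1, ?_⟩
  have h4 : a⁻¹ * z = z * a⁻¹ := (show Commute a z from h3).inv_left.eq
  calc a * b * a⁻¹ * z = a * b * (a⁻¹ * z) := by group
    _ = a * (b * z) * a⁻¹ := by rw [h4]; group
    _ = (a * z) * b * a⁻¹ := by rw [h2]; group
    _ = z * (a * b * a⁻¹) := by rw [h3]; group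

/-- The commutator of an element of `A` and of `B` is in the intersection. -/
theorem comm_AB {a b : G} (ha : a ∈ AA Q y) (hb : b ∈ AA Q' z) : a * b * a⁻¹ * b⁻¹ ∈ Q ⊓ Q' := by
  have h1 := h.symm.A_norm_B hb (inv_mem ha)
  obtain ⟨h2, h3⟩ := mem_AA.1 hb
  obtain ⟨h4, h5⟩ := mem_AA.1 ha
  refine Subgroup.mem_inf.2 ⟨?_, mul_mem (h.A_norm ha h2) (inv_mem h2)⟩
  have : a * b * a⁻¹ * b⁻¹ = a * (b * a⁻¹ * b⁻¹) := by group
  rw [this]
  exact mul_mem h4 (mem_AA.1 h1).1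

theorem E_A {e : G} (he : e ∈ Q ⊓ Q') : e ∈ AA Q y :=
  mem_AA.2 ⟨he.1, h.hQ'.central e he.2⟩

theorem E_B {e : G} (he : e ∈ Q ⊓ Q') : e ∈ AA Q' z :=
  mem_AA.2 ⟨he.2, h.hQ.central e he.1⟩

theorem inter : AA Q' z ⊓ AA Q y = Q ⊓ Q' := by
  apply le_antisymm
  · intro e he
    exact ⟨(mem_AA.1 he.2).1, (mem_AA.1 he.1).1⟩
  · intro e he
    exact ⟨h.E_B he, h.E_A he⟩

theorem E_sq {e : G} (he : e ∈ Q ⊓ Q') : e * e = 1 := by
  rcases h.hQ.sq_mem e he.1 with h1 | h1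
  · exact h1
  · rcases h.hQ'.sq_mem e he.2 with h2 | h2
    · exact h2
    · exact absurd (h2.symm.trans h1) h.hne

theorem E_comm {e f : G} (he : e ∈ Q ⊓ Q') (hf : f ∈ Q ⊓ Q') : e * f = f * e := by
  have key : e * f * e⁻¹ * f⁻¹ = 1 := by
    rcases h.hQ.comm e he.1 f hf.1 with h1 | h1
    · exact h1
    · rcases h.hQ'.comm e he.2 f hf.2 with h2 | h2
      · exact h2
      · exact absurd (h2.symm.trans h1) h.hne
  exact (Cfsg.Agent.Lib.LargeExtra.Duality.comm_eq_one_iff e f).1 key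

theorem zE : z ∈ Q ⊓ Q' := ⟨h.hQ.mem, h.hz⟩
theorem yE : y ∈ Q ⊓ Q' := ⟨h.hy, h.hQ'.mem⟩

/-- `A` normalizes `E`. -/
theorem A_norm_E {a e : G} (ha : a ∈ AA Q y) (he : e ∈ Q ⊓ Q') : a * e * a⁻¹ ∈ Q ⊓ Q' :=
  Subgroup.mem_inf.2 ⟨mul_mem (mul_mem (mem_AA.1 ha).1 he.1) (inv_mem (mem_AA.1 ha).1), h.A_norm ha he.2⟩

/-- The product decomposition of `R`. -/
theorem mem_R {r : G} (hr : r ∈ AA Q' z ⊔ AA Q y) : ∃ a ∈ AA Q y, ∃ b ∈ AA Q' z, r = a * b := by
  let S : Subgroup G :=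
    { carrier := {r | ∃ a ∈ AA Q y, ∃ b ∈ AA Q' z, r = a * b}
      one_mem' := ⟨1, one_mem _, 1, one_mem _, by simp⟩
      mul_mem' := by
        rintro _ _ ⟨a, ha, b, hb, rfl⟩ ⟨a', ha', b', hb', rfl⟩
        refine ⟨a * (b * a' * b⁻¹), mul_mem ha (h.symm.A_norm_B hb ha'), b * b', mul_mem hb hb', by group⟩
      inv_mem' := by
        rintro _ ⟨a, ha, b, hb, rfl⟩
        refine ⟨b⁻¹ * a⁻¹ * b⁻¹⁻¹, h.symm.A_norm_B (inv_mem hb) (inv_mem ha), b⁻¹, inv_mem hb, by group⟩ }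
  have hle : AA Q' z ⊔ AA Q y ≤ S := by
    refine sup_le ?_ ?_
    · intro b hb
      exact ⟨1, one_mem _, b, hb, by simp⟩
    · intro a ha
      exact ⟨a, ha, 1, one_mem _, by simp⟩
  exact hle hr

theorem A_le_R : AA Q y ≤ AA Q' z ⊔ AA Q y := le_sup_right
theorem B_le_R : AA Q' z ≤ AA Q' z ⊔ AA Q y := le_sup_left
theorem E_le_R {e : G} (he : e ∈ Q ⊓ Q') : e ∈ AA Q' z ⊔ AA Q y :=
  h.A_le_R (h.E_A he)

theorem comm_AA {a a' : G} (ha : a ∈ AA Q y) (ha' : a' ∈ AA Q y) : a * a' * a⁻¹ * a'⁻¹ ∈ Q ⊓ Q' := by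
  rcases h.hQ.comm a (mem_AA.1 ha).1 a' (mem_AA.1 ha').1 with h1 | h1
  · rw [h1]; exact one_mem _
  · rw [h1]; exact h.zE

theorem comm_BB {a a' : G} (ha : a ∈ AA Q' z) (ha' : a' ∈ AA Q' z) : a * a' * a⁻¹ * a'⁻¹ ∈ Q ⊓ Q' := by
  rcases h.hQ'.comm a (mem_AA.1 ha).1 a' (mem_AA.1 ha').1 with h1 | h1
  · rw [h1]; exact one_mem _
  · rw [h1]; exact h.yE

theorem sq_AA {a : G} (ha : a ∈ AA Q y) : a * a ∈ Q ⊓ Q' := by
  rcases h.hQ.sq_mem a (mem_AA.1 ha).1 with h1 | h1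
  · rw [h1]; exact one_mem _
  · rw [h1]; exact h.zE

theorem sq_BB {a : G} (ha : a ∈ AA Q' z) : a * a ∈ Q ⊓ Q' := by
  rcases h.hQ'.sq_mem a (mem_AA.1 ha).1 with h1 | h1
  · rw [h1]; exact one_mem _
  · rw [h1]; exact h.yE

/-- Commutators in `R` lie in `E`. -/
theorem comm_R {r s : G} (hr : r ∈ AA Q' z ⊔ AA Q y) (hs : s ∈ AA Q' z ⊔ AA Q y) :
    r * s * r⁻¹ * s⁻¹ ∈ Q ⊓ Q' := by
  obtain ⟨a, ha, b, hb, rfl⟩ := h.mem_R hr
  obtain ⟨a', ha', b', hb', rfl⟩ := h.mem_R hs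
  -- `b` and `a'`
  have h1 : b * a' * b⁻¹ * a'⁻¹ ∈ Q ⊓ Q' := by
    have h2 := inv_mem (h.comm_AB ha' hb)
    have e : (a' * b * a'⁻¹ * b⁻¹)⁻¹ = b * a' * b⁻¹ * a'⁻¹ := by group
    rwa [e] at h2
  have hb_norm : ∀ e ∈ Q ⊓ Q', b * e * b⁻¹ ∈ Q ⊓ Q' := fun e he => by
    have := h.symm.A_norm_E hb (by rwa [inf_comm] at he)
    rwa [inf_comm] at this
  have hb'_norm : ∀ e ∈ Q ⊓ Q', b' * e * b'⁻¹ ∈ Q ⊓ Q' := fun e he => by
    have := h.symm.A_norm_E hb' (by rwa [inf_comm] at he)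
    rwa [inf_comm] at this
  have e1 : (a * b) * (a' * b') * (a * b)⁻¹ * (a' * b')⁻¹ =
      a * ((b * a' * b⁻¹ * a'⁻¹) * (a' * (b * b' * b⁻¹ * b'⁻¹) * a'⁻¹)) * a⁻¹ *
        ((a * a' * a⁻¹ * a'⁻¹) * (a' * (a * b' * a⁻¹ * b'⁻¹) * a'⁻¹)) := by group
  rw [e1]
  refine mul_mem (h.A_norm_E ha (mul_mem h1 (h.A_norm_E ha' (h.comm_BB hb hb')))) ?_
  exact mul_mem (h.comm_AA ha ha') (h.A_norm_E ha' (h.comm_AB ha hb'))

/-- Squares in `R` lie in `E`. -/
theorem sq_R {r : G} (hr : r ∈ AA Q' z ⊔ AA Q y) : r * r ∈ Q ⊓ Q' := by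
  obtain ⟨a, ha, b, hb, rfl⟩ := h.mem_R hr
  have h1 : b * a * b⁻¹ * a⁻¹ ∈ Q ⊓ Q' := by
    have h2 := inv_mem (h.comm_AB ha hb)
    have e : (a * b * a⁻¹ * b⁻¹)⁻¹ = b * a * b⁻¹ * a⁻¹ := by group
    rwa [e] at h2
  have e1 : (a * b) * (a * b) = (a * (b * a * b⁻¹ * a⁻¹) * a⁻¹) * (a * a) * (b * b) := by group
  rw [e1]
  exact mul_mem (mul_mem (h.A_norm_E ha h1) (h.sq_AA ha)) (h.sq_BB hb)

/-- Membership in `V`. -/
theorem mem_V (v : G) : v ∈ Subgroup.closure ({z, y} : Set G) ↔ v = 1 ∨ v = z ∨ v = y ∨ v = z * y :=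
  mem_closure_pair h.zz h.yy h.zy v

theorem z_V : z ∈ Subgroup.closure ({z, y} : Set G) := Subgroup.subset_closure (by simp)
theorem y_V : y ∈ Subgroup.closure ({z, y} : Set G) := Subgroup.subset_closure (by simp)

theorem V_comm {c : G} (hz : c * z = z * c) (hy : c * y = y * c) {v : G}
    (hv : v ∈ Subgroup.closure ({z, y} : Set G)) : c * v = v * c := by
  rcases (h.mem_V v).1 hv with rfl | rfl | rfl | rfl
  · simp
  · exact hz
  · exact hy
  · exact ((show Commute c z from hz).mul_right (show Commute c y from hy)).eq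

theorem V_le_E : Subgroup.closure ({z, y} : Set G) ≤ Q ⊓ Q' := by
  rw [Subgroup.closure_le]
  rintro _ (rfl | rfl)
  · exact h.zE
  · exact h.yE

theorem V_Q : Subgroup.closure ({z, y} : Set G) ≤ Q := h.V_le_E.trans inf_le_left

/-- An element of `Q` commuting with `A` lies in `V`. -/
theorem mem_V_of_comm_A {e : G} (he : e ∈ Q) (hc : ∀ a ∈ AA Q y, a * e = e * a) :
    e ∈ Subgroup.closure ({z, y} : Set G) := by
  by_contra hn
  obtain ⟨q, hq, hq1, hq2⟩ := h.hQ.toSettingAt.exists_centralizing _ h.V_Q h.z_V he hn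
  have hqA : q ∈ AA Q y := mem_AA.2 ⟨hq, hq1 y h.y_V⟩
  have := hc q hqA
  have h3 : q * e * q⁻¹ = e := by rw [this]; group
  rw [h3] at hq2
  apply h.z1
  have h4 : z * e * e⁻¹ = e * e⁻¹ := by rw [← hq2]
  simpa using h4

/-- The action of `u` on `y`. -/
theorem exists_u : ∃ u ∈ Q, u * y * u⁻¹ = z * y :=
  h.hQ.exists_comm h.hy h.y1 h.hne

theorem sq_uy {u : G} (hu : u ∈ Q) (huy : u * y * u⁻¹ = z * y) : (u * y) * (u * y) = z * (u * u) := by
  calc (u * y) * (u * y) = (u * y * u⁻¹) * (u * u) * y := by group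
    _ = (z * y) * (u * u) * y := by rw [huy]
    _ = z * (y * (u * u) * y) := by group
    _ = z * (u * u) := by
      have huu : u * u ∈ Q := mul_mem hu hu
      have : (u * u) * y = y * (u * u) := by
        rcases h.hQ.sq_mem u hu with h1 | h1
        · rw [h1]; simp
        · rw [h1]; exact h.zy
      rw [← this, mul_assoc, h.yy, mul_one]

theorem notMem_A {u : G} (huy : u * y * u⁻¹ = z * y) : u ∉ AA Q y := by
  intro hh
  have h1 := (mem_AA.1 hh).2
  have h2 : u * y * u⁻¹ = y := by rw [h1]; group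
  rw [h2] at huy
  exact h.zyy' huy.symm

theorem coset_A {u q : G} (hu : u ∈ Q) (huy : u * y * u⁻¹ = z * y) (hq : q ∈ Q) (hqA : q ∉ AA Q y) :
    u⁻¹ * q ∈ AA Q y := by
  rw [mem_AA]
  refine ⟨mul_mem (inv_mem hu) hq, ?_⟩
  apply h.hQ.coset h.hy hu hq
  · intro h1
    exact h.notMem_A huy (mem_AA.2 ⟨hu, h1⟩)
  · intro h1
    exact hqA (mem_AA.2 ⟨hq, h1⟩)

/-- An element commuting with `z` and with `A` lies in `V`. -/
theorem cent_A {r : G} (hrz : r * z = z * r) (hrA : ∀ a ∈ AA Q y, r * a = a * r) :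
    r ∈ Subgroup.closure ({z, y} : Set G) := by
  obtain ⟨u, hu, huy⟩ := h.exists_u
  have hru : r * u * r⁻¹ ∈ Q := h.hQ.norm r hrz u hu
  -- the product
  set t : G := u⁻¹ * (r * u * r⁻¹) with ht
  have htQ : t ∈ Q := mul_mem (inv_mem hu) hru
  have hrzi : r⁻¹ * z = z * r⁻¹ := (show Commute r z from hrz).inv_left.eq
  have htA : ∀ a ∈ AA Q y, a * t = t * a := by
    intro a ha
    obtain ⟨ha1, ha2⟩ := mem_AA.1 ha
    have hra := hrA a ha
    have hrai : r⁻¹ * a * r = a := by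
      have h0 : r⁻¹ * a = a * r⁻¹ := (show Commute r a from hra).inv_left.eq
      rw [h0]; group
    have e1 : (r * u * r⁻¹) * a * (r * u * r⁻¹)⁻¹ = u * a * u⁻¹ := by
      rcases h.hQ.act hu ha1 with h1 | h1
      · calc (r * u * r⁻¹) * a * (r * u * r⁻¹)⁻¹ = r * u * (r⁻¹ * a * r) * u⁻¹ * r⁻¹ := by group
          _ = r * (u * a * u⁻¹) * r⁻¹ := by rw [hrai]; group
          _ = r * a * r⁻¹ := by rw [h1]
          _ = a := by rw [hra]; group
          _ = u * a * u⁻¹ := h1.symm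
      · calc (r * u * r⁻¹) * a * (r * u * r⁻¹)⁻¹ = r * u * (r⁻¹ * a * r) * u⁻¹ * r⁻¹ := by group
          _ = r * (u * a * u⁻¹) * r⁻¹ := by rw [hrai]; group
          _ = r * (z * a) * r⁻¹ := by rw [h1]
          _ = z * (r * a * r⁻¹) := by rw [← mul_assoc r z a, hrz]; group
          _ = z * a := by rw [hra]; group
          _ = u * a * u⁻¹ := h1.symm
    calc a * t = a * u⁻¹ * (r * u * r⁻¹) := by rw [ht]; group
      _ = u⁻¹ * (u * a * u⁻¹) * (r * u * r⁻¹) := by group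
      _ = u⁻¹ * ((r * u * r⁻¹) * a * (r * u * r⁻¹)⁻¹) * (r * u * r⁻¹) := by rw [e1]
      _ = t * a := by rw [ht]; group
  have htV := h.mem_V_of_comm_A htQ htA
  -- square of `r u r⁻¹`
  have hsq : (r * u * r⁻¹) * (r * u * r⁻¹) = u * u := by
    have e : (r * u * r⁻¹) * (r * u * r⁻¹) = r * (u * u) * r⁻¹ := by group
    rw [e]
    rcases h.hQ.sq_mem u hu with h1 | h1 <;> rw [h1]
    · group
    · rw [hrz]; group
  have hru2 : r * u * r⁻¹ = u * t := by rw [ht]; group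
  have hcz : ∀ c : G, z * c = c * z → z * (u * c) = (u * c) * z := by
    intro c hc
    rw [← mul_assoc, ← h.hQ.central u hu, mul_assoc, hc, mul_assoc]
  have huyv := h.sq_uy hu huy
  have hzuu : z * (u * u) ≠ u * u := by
    intro h1
    exact h.z1 (mul_eq_right.1 h1)
  -- `r u = u t r`
  have hcommA : ∀ s : G, (∀ a ∈ AA Q y, s * a = a * s) → s * u = u * s →
      s = 1 ∨ s = z := by
    intro s hs hsu
    apply h.hQ.cent
    intro a ha
    by_cases haA : a ∈ AA Q y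
    · exact hs a haA
    · have h1 := h.coset_A hu huy ha haA
      have h2 := hs _ h1
      have e : a = u * (u⁻¹ * a) := by group
      rw [e, ← mul_assoc, hsu, mul_assoc, h2]
      group
  rcases (h.mem_V t).1 htV with h1 | h1 | h1 | h1
  · -- `t = 1`
    rw [h1, mul_one] at hru2
    have hru3 : r * u = u * r := by
      calc r * u = (r * u * r⁻¹) * r := by group
        _ = u * r := by rw [hru2]
    rcases hcommA r hrA hru3 with h2 | h2
    · rw [h2]; exact one_mem _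
    · rw [h2]; exact h.z_V
  · -- `t = z`: `r y` commutes with `Q`
    rw [h1] at hru2
    have hyu : y * u * y⁻¹ = z * u := by
      have h2 : y * u * y⁻¹ * u⁻¹ = z := by
        have := h.hQ.inv_comm hu h.hy (by rw [huy, h.yi]; rw [mul_assoc, h.yy, mul_one])
        exact this
      calc y * u * y⁻¹ = (y * u * y⁻¹ * u⁻¹) * u := by group
        _ = z * u := by rw [h2]
    have hs : (∀ a ∈ AA Q y, (r * y) * a = a * (r * y)) := by
      intro a ha
      have h2 := (mem_AA.1 ha).2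
      calc (r * y) * a = r * (y * a) := by group
        _ = r * (a * y) := by rw [h2]
        _ = (r * a) * y := by group
        _ = (a * r) * y := by rw [hrA a ha]
        _ = a * (r * y) := by group
    have hsu : (r * y) * u = u * (r * y) := by
      have e2 : (r * y) * u * (r * y)⁻¹ = u := by
        calc (r * y) * u * (r * y)⁻¹ = r * (y * u * y⁻¹) * r⁻¹ := by group
          _ = r * (z * u) * r⁻¹ := by rw [hyu]
          _ = z * (r * u * r⁻¹) := by rw [← mul_assoc r z u, hrz]; group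
          _ = z * (u * z) := by rw [hru2]
          _ = (z * u) * z := by group
          _ = (u * z) * z := by rw [← h.hQ.central u hu]
          _ = u := by rw [mul_assoc, h.zz, mul_one]
      calc (r * y) * u = ((r * y) * u * (r * y)⁻¹) * (r * y) := by group
        _ = u * (r * y) := by rw [e2]
    have hry : r = (r * y) * y := by rw [mul_assoc, h.yy, mul_one]
    rcases hcommA _ hs hsu with h2 | h2
    · rw [hry, h2, one_mul]; exact h.y_V
    · rw [hry, h2]; exact mul_mem h.z_V h.y_V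
  · -- `t = y`
    rw [h1] at hru2
    exfalso
    rw [hru2, huyv] at hsq
    exact hzuu hsq
  · -- `t = z y`
    rw [h1] at hru2
    exfalso
    rw [hru2] at hsq
    apply hzuu
    have e3 : u * (z * y) * (u * (z * y)) = (u * y) * (u * y) * (z * z) := by
      have h5 : u * z = z * u := h.hQ.central u hu
      have h6 : y * z = z * y := h.zy.symm
      calc u * (z * y) * (u * (z * y)) = u * z * y * (u * z) * y := by group
        _ = z * u * y * (z * u) * y := by rw [h5]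
        _ = z * u * (y * z) * u * y := by group
        _ = z * u * (z * y) * u * y := by rw [h6]
        _ = z * (u * z) * y * u * y := by group
        _ = z * (z * u) * y * u * y := by rw [h5]
        _ = (z * z) * ((u * y) * (u * y)) := by group
        _ = (u * y) * (u * y) * (z * z) := by rw [h.zz]; group
    rw [e3, h.zz, mul_one, huyv] at hsq
    exact hsq

theorem V_symm : Subgroup.closure ({y, z} : Set G) = Subgroup.closure ({z, y} : Set G) := by
  rw [Set.pair_comm]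

/-- `Q` normalizes `V`. -/
theorem V_conj_Q {q v : G} (hq : q ∈ Q) (hv : v ∈ Subgroup.closure ({z, y} : Set G)) :
    q * v * q⁻¹ ∈ Subgroup.closure ({z, y} : Set G) := by
  have hz : q * z * q⁻¹ = z := by rw [h.hQ.central q hq]; group
  have hy : q * y * q⁻¹ ∈ Subgroup.closure ({z, y} : Set G) := by
    rcases h.hQ.act hq h.hy with h1 | h1
    · rw [h1]; exact h.y_V
    · rw [h1]; exact mul_mem h.z_V h.y_V
  rcases (h.mem_V v).1 hv with rfl | rfl | rfl | rfl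
  · simp
  · rw [hz]; exact h.z_V
  · exact hy
  · have e : q * (z * y) * q⁻¹ = (q * z * q⁻¹) * (q * y * q⁻¹) := by group
    rw [e]
    exact mul_mem (by rw [hz]; exact h.z_V) hy

theorem V_conj_Q' {q v : G} (hq : q ∈ Q') (hv : v ∈ Subgroup.closure ({z, y} : Set G)) :
    q * v * q⁻¹ ∈ Subgroup.closure ({z, y} : Set G) := by
  have := h.symm.V_conj_Q hq (v := v) (by rw [h.V_symm]; exact hv)
  rwa [h.V_symm] at this

/-- The commutators of `X` and `E` lie in `V`. -/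
theorem comm_X_E {x e : G} (hx : x ∈ Q ⊔ Q') (he : e ∈ Q ⊓ Q') :
    x * e * x⁻¹ * e⁻¹ ∈ Subgroup.closure ({z, y} : Set G) := by
  let V := Subgroup.closure ({z, y} : Set G)
  let W : Subgroup G :=
    { carrier := {x | (∀ e ∈ Q ⊓ Q', x * e * x⁻¹ * e⁻¹ ∈ V) ∧ (∀ v ∈ V, x * v * x⁻¹ ∈ V) ∧ (∀ v ∈ V, x⁻¹ * v * x ∈ V)}
      one_mem' := ⟨fun e he => by simp, fun v hv => by simpa using hv, fun v hv => by simpa using hv⟩
      mul_mem' := by
        rintro a b ⟨ha1, ha2, ha3⟩ ⟨hb1, hb2, hb3⟩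
        refine ⟨fun e he => ?_, fun v hv => ?_, fun v hv => ?_⟩
        · have e1 : a * b * e * (a * b)⁻¹ * e⁻¹ = a * (b * e * b⁻¹ * e⁻¹) * a⁻¹ * (a * e * a⁻¹ * e⁻¹) := by group
          rw [e1]
          exact mul_mem (ha2 _ (hb1 e he)) (ha1 e he)
        · have e1 : a * b * v * (a * b)⁻¹ = a * (b * v * b⁻¹) * a⁻¹ := by group
          rw [e1]
          exact ha2 _ (hb2 v hv)
        · have e1 : (a * b)⁻¹ * v * (a * b) = b⁻¹ * (a⁻¹ * v * a) * b := by group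
          rw [e1]
          exact hb3 _ (ha3 v hv)
      inv_mem' := by
        rintro a ⟨ha1, ha2, ha3⟩
        refine ⟨fun e he => ?_, fun v hv => ?_, fun v hv => ?_⟩
        · have e1 : a⁻¹ * e * a⁻¹⁻¹ * e⁻¹ = a⁻¹ * (a * e * a⁻¹ * e⁻¹)⁻¹ * a := by group
          rw [e1]
          exact ha3 _ (inv_mem (ha1 e he))
        · exact (by simpa using ha3 v hv)
        · exact (by simpa using ha2 v hv) }
  have hQW : Q ≤ W := by
    intro q hq
    refine ⟨fun e he => ?_, fun v hv => h.V_conj_Q hq hv, fun v hv => ?_⟩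
    · rcases h.hQ.comm q hq e he.1 with h1 | h1
      · rw [h1]; exact one_mem _
      · rw [h1]; exact h.z_V
    · have := h.V_conj_Q (inv_mem hq) hv
      simpa using this
  have hQ'W : Q' ≤ W := by
    intro q hq
    refine ⟨fun e he => ?_, fun v hv => h.V_conj_Q' hq hv, fun v hv => ?_⟩
    · rcases h.hQ'.comm q hq e he.2 with h1 | h1
      · rw [h1]; exact one_mem _
      · rw [h1]; exact h.y_V
    · have := h.V_conj_Q' (inv_mem hq) hv
      simpa using this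
  exact ((sup_le hQW hQ'W) hx).1 e he

theorem R_le_C {r : G} (hr : r ∈ AA Q' z ⊔ AA Q y) : r * z = z * r ∧ r * y = y * r := by
  let W : Subgroup G := Subgroup.centralizer ({z, y} : Set G)
  have hW : ∀ a, a ∈ W ↔ a * z = z * a ∧ a * y = y * a := by
    intro a
    rw [Subgroup.mem_centralizer_iff]
    constructor
    · intro hh
      exact ⟨(hh z (by simp)).symm, (hh y (by simp)).symm⟩
    · rintro ⟨h1, h2⟩ _ (rfl | rfl)
      · exact h1.symm
      · exact h2.symm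
  have hle : AA Q' z ⊔ AA Q y ≤ W := by
    refine sup_le ?_ ?_
    · intro b hb
      obtain ⟨h1, h2⟩ := mem_AA.1 hb
      exact (hW b).2 ⟨h2, h.hQ'.central b h1⟩
    · intro a ha
      obtain ⟨h1, h2⟩ := mem_AA.1 ha
      exact (hW a).2 ⟨h.hQ.central a h1, h2⟩
  exact (hW r).1 (hle hr)

theorem V_le_R : Subgroup.closure ({z, y} : Set G) ≤ AA Q' z ⊔ AA Q y :=
  fun _ hv => h.E_le_R (h.V_le_E hv)

theorem center_R : (Subgroup.center ↥(AA Q' z ⊔ AA Q y)).map (AA Q' z ⊔ AA Q y).subtype =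
    Subgroup.closure ({z, y} : Set G) := by
  apply le_antisymm
  · rintro _ ⟨r, hr, rfl⟩
    have hc : ∀ s : ↥(AA Q' z ⊔ AA Q y), (r : G) * s = s * r := by
      intro s
      have := Subgroup.mem_center_iff.1 hr s
      exact (congrArg Subtype.val this).symm
    refine h.cent_A (hc ⟨z, h.V_le_R h.z_V⟩) (fun a ha => hc ⟨a, h.A_le_R ha⟩)
  · intro v hv
    refine ⟨⟨v, h.V_le_R hv⟩, ?_, rfl⟩
    rw [SetLike.mem_coe, Subgroup.mem_center_iff]
    intro s
    apply Subtype.ext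
    obtain ⟨h1, h2⟩ := h.R_le_C s.2
    exact h.V_comm h1 h2 hv

theorem R_le_X : AA Q' z ⊔ AA Q y ≤ Q ⊔ Q' :=
  sup_le (inf_le_left.trans le_sup_right) (inf_le_left.trans le_sup_left)

theorem mem_center_R {t : ↥(AA Q' z ⊔ AA Q y)} (ht : (t : G) ∈ Subgroup.closure ({z, y} : Set G)) :
    t ∈ Subgroup.center ↥(AA Q' z ⊔ AA Q y) := by
  rw [← h.center_R] at ht
  obtain ⟨s, hs, hst⟩ := ht
  have : s = t := Subtype.ext hst
  rwa [← this]

theorem mem_Z2 {t : ↥(AA Q' z ⊔ AA Q y)} (ht : (t : G) ∈ Q ⊓ Q') :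
    t ∈ Subgroup.upperCentralSeries ↥(AA Q' z ⊔ AA Q y) 2 := by
  rw [show (2 : ℕ) = 1 + 1 from rfl, Subgroup.mem_upperCentralSeries_succ_iff, Subgroup.upperCentralSeries_one]
  intro s
  apply h.mem_center_R
  have h1 := inv_mem (h.comm_X_E (h.R_le_X s.2) ht)
  have e : ((s : G) * t * (s : G)⁻¹ * (t : G)⁻¹)⁻¹ = (t : G) * s * (t : G)⁻¹ * (s : G)⁻¹ := by group
  rw [e] at h1
  have e2 : ((⁅t, s⁆ : ↥(AA Q' z ⊔ AA Q y)) : G) = (t : G) * s * (t : G)⁻¹ * (s : G)⁻¹ := by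
    simp [commutatorElement_def]
  rw [e2]
  exact h1

theorem Z3 : Subgroup.upperCentralSeries ↥(AA Q' z ⊔ AA Q y) 3 = ⊤ := by
  rw [eq_top_iff]
  intro r _
  rw [show (3 : ℕ) = 2 + 1 from rfl, Subgroup.mem_upperCentralSeries_succ_iff]
  intro s
  apply h.mem_Z2
  have := h.comm_R r.2 s.2
  have e2 : ((⁅r, s⁆ : ↥(AA Q' z ⊔ AA Q y)) : G) = (r : G) * s * (r : G)⁻¹ * (s : G)⁻¹ := by
    simp [commutatorElement_def]
  rw [e2]
  exact this

theorem elem_E : Cfsg.IsElementaryAbelian 2 (Q ⊓ Q') := by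
  refine ⟨⟨⟨fun a b => Subtype.ext (h.E_comm a.2 b.2)⟩⟩, fun a ha => ?_⟩
  rw [pow_two]
  exact h.E_sq ha

end PS

theorem PS.of_large {z g : G} (hQ : Cfsg.IsLargeExtraspecial Q)
    (hz : (Subgroup.center ↥Q).map Q.subtype = Subgroup.zpowers z) (hz2 : orderOf z = 2)
    {w : ℕ} (hw : 2 ≤ w) (hcard : Nat.card ↥Q = 2 ^ (2 * w + 1))
    (hgH : g ∉ Subgroup.centralizer ({z} : Set G)) (hgQ : g * z * g⁻¹ ∈ Q) :
    PS Q (Q.map (MulAut.conj g).toMonoidHom) z (g * z * g⁻¹) g := by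
  have hL := lx_of_large hQ hz hz2
  have hL' := hL.conj g
  have hne : g * z * g⁻¹ ≠ z := by
    intro h1
    apply hgH
    rw [Subgroup.mem_centralizer_iff]
    intro a ha
    have ha' : a = z := ha
    rw [ha']
    calc z * g = (g * z * g⁻¹) * g := by rw [h1]
      _ = g * z := by group
  have hc32 : 32 ≤ Nat.card ↥Q := by
    rw [hcard]
    calc 32 = 2 ^ 5 := by norm_num
      _ ≤ 2 ^ (2 * w + 1) := Nat.pow_le_pow_right (by norm_num) (by omega)
  exact ⟨hL, hL', rfl, rfl, hgQ, z_mem hL hL' rfl rfl hgQ hne hc32, hne⟩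

end Cfsg.Agent.Lib.LargeExtra.PairStruct
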