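import Mathlib
import Cfsg.Agent.Lib.LargeExtra.PairStruct
import Cfsg.Agent.Lib.ThreeT.Dih6
import Cfsg.Agent.Lib.Core.Basic

/-!
The quotient `⟨Q, Q'⟩ / R` of a pair of large extraspecial subgroups is `S₃`.
-/

set_option autoImplicit false
set_option linter.unusedSectionVars false
set_option linter.unusedVariables false
set_option linter.style.longLine false
set_option linter.unusedSimpArgs false
set_option linter.unnecessarySimpa false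

namespace Cfsg.Agent.Lib.LargeExtra.PairStruct

open Cfsg.Agent.Lib.LargeExtra.Basic Cfsg.Agent.Lib.LargeExtra.Pair Cfsg.Agent.Lib.LargeExtra.PairStruct
open Cfsg.Agent.Lib.ThreeT.Dih6
open scoped commutatorElement

variable {G : Type*} [Group G] [Finite G] {Q Q' : Subgroup G} {z y g : G}

set_option maxRecDepth 100000 in
theorem perm3_fact : ∀ σ : Equiv.Perm (Fin 3), σ ≠ 1 →
    ∃ π : Equiv.Perm (Fin 3), π * σ * π⁻¹ * σ⁻¹ ≠ 1 ∧ (π * σ * π⁻¹ * σ⁻¹) ^ 3 = 1 := by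
  decide

namespace PS

variable (h : PS Q Q' z y g)
include h

/-- Commutators of `Q` with the centralizer of `V` lie in `A`. -/
theorem comm_Q_C {q c : G} (hq : q ∈ Q) (hcz : c * z = z * c) (hcy : c * y = y * c) :
    q * c * q⁻¹ * c⁻¹ ∈ AA Q y := by
  have h1 : c * q⁻¹ * c⁻¹ ∈ Q := h.hQ.norm c hcz _ (inv_mem hq)
  rw [mem_AA]
  constructor
  · have e : q * c * q⁻¹ * c⁻¹ = q * (c * q⁻¹ * c⁻¹) := by group
    rw [e]; exact mul_mem hq h1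
  · -- `w = q⁻¹ y q` commutes with `c`.
    have hcw : c * (q⁻¹ * y * q⁻¹⁻¹) = (q⁻¹ * y * q⁻¹⁻¹) * c := by
      rcases h.hQ.act (inv_mem hq) h.hy with h2 | h2
      · rw [h2]; exact hcy
      · rw [h2]
        exact ((show Commute c z from hcz).mul_right (show Commute c y from hcy)).eq
    have hcy' : c⁻¹ * y = y * c⁻¹ := (show Commute c y from hcy).inv_left.eq
    calc q * c * q⁻¹ * c⁻¹ * y = q * c * q⁻¹ * y * c⁻¹ := by rw [mul_assoc _ c⁻¹ y, hcy']; group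
      _ = q * (c * (q⁻¹ * y * q⁻¹⁻¹)) * q⁻¹ * c⁻¹ := by group
      _ = q * ((q⁻¹ * y * q⁻¹⁻¹) * c) * q⁻¹ * c⁻¹ := by rw [hcw]
      _ = y * (q * c * q⁻¹ * c⁻¹) := by group

/-- Commutators of `X` with the centralizer of `V` lie in `R`. -/
theorem comm_X_C {x c : G} (hx : x ∈ Q ⊔ Q') (hcz : c * z = z * c) (hcy : c * y = y * c) :
    x * c * x⁻¹ * c⁻¹ ∈ AA Q' z ⊔ AA Q y := by
  let R := AA Q' z ⊔ AA Q y
  let W : Subgroup G :=
    { carrier := {x | (∀ c, c * z = z * c → c * y = y * c → x * c * x⁻¹ * c⁻¹ ∈ R) ∧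
        (∀ c, c * z = z * c → c * y = y * c → x⁻¹ * c * x * c⁻¹ ∈ R)}
      one_mem' := ⟨fun c _ _ => by simp, fun c _ _ => by simp⟩
      mul_mem' := by
        rintro a b ⟨ha1, ha2⟩ ⟨hb1, hb2⟩
        refine ⟨fun c hcz hcy => ?_, fun c hcz hcy => ?_⟩
        · have e1 : a * b * c * (a * b)⁻¹ * c⁻¹ =
              (a * (b * c * b⁻¹ * c⁻¹) * a⁻¹ * (b * c * b⁻¹ * c⁻¹)⁻¹) * (b * c * b⁻¹ * c⁻¹) *
                (a * c * a⁻¹ * c⁻¹) := by group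
          rw [e1]
          have hr := hb1 c hcz hcy
          obtain ⟨h1, h2⟩ := h.R_le_C hr
          exact mul_mem (mul_mem (ha1 _ h1 h2) hr) (ha1 c hcz hcy)
        · have e1 : (a * b)⁻¹ * c * (a * b) * c⁻¹ =
              (b⁻¹ * (a⁻¹ * c * a * c⁻¹) * b * (a⁻¹ * c * a * c⁻¹)⁻¹) * (a⁻¹ * c * a * c⁻¹) *
                (b⁻¹ * c * b * c⁻¹) := by group
          rw [e1]
          have hr := ha2 c hcz hcy
          obtain ⟨h1, h2⟩ := h.R_le_C hr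
          exact mul_mem (mul_mem (hb2 _ h1 h2) hr) (hb2 c hcz hcy)
      inv_mem' := by
        rintro a ⟨ha1, ha2⟩
        exact ⟨fun c hcz hcy => by simpa using ha2 c hcz hcy, fun c hcz hcy => by
          have := ha1 c hcz hcy
          simpa using this⟩ }
  have hQW : Q ≤ W := by
    intro q hq
    refine ⟨fun c hcz hcy => h.A_le_R (h.comm_Q_C hq hcz hcy), fun c hcz hcy => ?_⟩
    have := h.A_le_R (h.comm_Q_C (inv_mem hq) hcz hcy)
    simpa using this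
  have hQ'W : Q' ≤ W := by
    intro q hq
    refine ⟨fun c hcz hcy => h.B_le_R (h.symm.comm_Q_C hq hcy hcz), fun c hcz hcy => ?_⟩
    have := h.B_le_R (h.symm.comm_Q_C (inv_mem hq) hcy hcz)
    simpa using this
  exact ((sup_le hQW hQ'W) hx).1 c hcz hcy

/-- `X` normalizes `R`. -/
theorem R_norm_X {x r : G} (hx : x ∈ Q ⊔ Q') (hr : r ∈ AA Q' z ⊔ AA Q y) :
    x * r * x⁻¹ ∈ AA Q' z ⊔ AA Q y := by
  obtain ⟨h1, h2⟩ := h.R_le_C hr
  have := mul_mem (h.comm_X_C hx h1 h2) hr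
  have e : x * r * x⁻¹ * r⁻¹ * r = x * r * x⁻¹ := by group
  rwa [e] at this

theorem R_normal : ((AA Q' z ⊔ AA Q y).subgroupOf (Q ⊔ Q')).Normal := by
  constructor
  intro n hn x
  rw [Subgroup.mem_subgroupOf] at hn ⊢
  simpa using h.R_norm_X x.2 hn

theorem isP_R : IsPGroup 2 ↥(AA Q' z ⊔ AA Q y) := by
  have h1 : IsPGroup 2 ↥(AA Q' z) := h.hQ'.isPGroup.to_le inf_le_left
  have h2 : IsPGroup 2 ↥(AA Q y) := h.hQ.isPGroup.to_le inf_le_left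
  refine IsPGroup.to_sup_of_normal_right' h1 h2 ?_
  intro b hb
  rw [Subgroup.mem_normalizer_iff]
  intro a
  constructor
  · intro ha
    exact h.symm.A_norm_B hb ha
  · intro ha
    have := h.symm.A_norm_B (inv_mem hb) ha
    have e : b⁻¹ * (b * a * b⁻¹) * b⁻¹⁻¹ = a := by group
    rwa [e] at this

section quotient

variable {u t : G} (hu : u ∈ Q) (huy : u * y * u⁻¹ = z * y) (ht : t ∈ Q') (htz : t * z * t⁻¹ = y * z)
include hu huy ht htz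

theorem rho_z : (u * t) * z * (u * t)⁻¹ = y := by
  calc (u * t) * z * (u * t)⁻¹ = u * (t * z * t⁻¹) * u⁻¹ := by group
    _ = (u * y * u⁻¹) * (u * z * u⁻¹) := by rw [htz]; group
    _ = z * y * z := by rw [huy, h.hQ.central u hu]; group
    _ = y := h.zyz

theorem rho_y : (u * t) * y * (u * t)⁻¹ = z * y := by
  calc (u * t) * y * (u * t)⁻¹ = u * (t * y * t⁻¹) * u⁻¹ := by group
    _ = u * y * u⁻¹ := by rw [h.hQ'.central t ht]; group
    _ = z * y := huy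

theorem conj_pair {s a b : G} (h1 : s * z * s⁻¹ = a) (h2 : s * y * s⁻¹ = b) :
    s * (z * y) * s⁻¹ = a * b := by
  rw [← h1, ← h2]; group

theorem rho_inv_z : (u * t)⁻¹ * z * (u * t) = z * y := by
  have h1 := conj_pair h hu huy ht htz (rho_z h hu huy ht htz) (rho_y h hu huy ht htz)
  have e : y * (z * y) = z := by
    rw [← mul_assoc, ← h.zy, mul_assoc, h.yy, mul_one]
  rw [e] at h1
  calc (u * t)⁻¹ * z * (u * t) = (u * t)⁻¹ * ((u * t) * (z * y) * (u * t)⁻¹) * (u * t) := by rw [h1]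
    _ = z * y := by group

theorem rho_Q {a : G} (ha : a ∈ Q) : (u * t) * a * (u * t)⁻¹ ∈ Q' := by
  rw [h.hQ'def, mem_map_conj]
  have h1 : (g⁻¹ * (u * t)) * z = z * (g⁻¹ * (u * t)) := by
    have h2 : (u * t) * z = y * (u * t) := by
      calc (u * t) * z = ((u * t) * z * (u * t)⁻¹) * (u * t) := by group
        _ = y * (u * t) := by rw [rho_z h hu huy ht htz]
    have h3 : g⁻¹ * y = z * g⁻¹ := by rw [← h.hg]; group
    calc (g⁻¹ * (u * t)) * z = g⁻¹ * ((u * t) * z) := by group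
      _ = g⁻¹ * (y * (u * t)) := by rw [h2]
      _ = (g⁻¹ * y) * (u * t) := by group
      _ = z * (g⁻¹ * (u * t)) := by rw [h3]; group
  have h4 := h.hQ.norm _ h1 a ha
  have e : g⁻¹ * ((u * t) * a * (u * t)⁻¹) * g = (g⁻¹ * (u * t)) * a * (g⁻¹ * (u * t))⁻¹ := by group
  rw [e]; exact h4

/-- `ρ u ρ⁻¹` lies in `t B`. -/
theorem rho_u_coset : t⁻¹ * ((u * t) * u * (u * t)⁻¹) ∈ AA Q' z := by
  have hw := rho_Q h hu huy ht htz hu
  have htz' : t * z * t⁻¹ = y * z := htz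
  apply h.symm.coset_A ht htz hw
  intro hh
  have h1 := (mem_AA.1 hh).2
  have h2 : ((u * t) * u * (u * t)⁻¹) * z * ((u * t) * u * (u * t)⁻¹)⁻¹ = z * y := by
    have e1 : ((u * t) * u * (u * t)⁻¹) * z * ((u * t) * u * (u * t)⁻¹)⁻¹ =
        (u * t) * (u * ((u * t)⁻¹ * z * (u * t)) * u⁻¹) * (u * t)⁻¹ := by group
    rw [e1, rho_inv_z h hu huy ht htz]
    have e2 : u * (z * y) * u⁻¹ = y := by
      have e3 : u * (z * y) * u⁻¹ = (u * z * u⁻¹) * (u * y * u⁻¹) := by group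
      rw [e3, huy, h.hQ.central u hu]
      have e4 : z * u * u⁻¹ = z := by group
      rw [e4, ← mul_assoc, h.zz, one_mul]
    rw [e2, rho_y h hu huy ht htz]
  have h3 : ((u * t) * u * (u * t)⁻¹) * z * ((u * t) * u * (u * t)⁻¹)⁻¹ = z := by
    rw [h1]; group
  rw [h3] at h2
  exact h.zyz' h2.symm

theorem hUX : u ∈ Q ⊔ Q' := (le_sup_left : Q ≤ Q ⊔ Q') hu
theorem hTX : t ∈ Q ⊔ Q' := (le_sup_right : Q' ≤ Q ⊔ Q') ht

theorem sq_mem_R_u : u * u ∈ AA Q' z ⊔ AA Q y := by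
  rcases h.hQ.sq_mem u hu with h1 | h1
  · rw [h1]; exact one_mem _
  · rw [h1]; exact h.V_le_R h.z_V

theorem sq_mem_R_t : t * t ∈ AA Q' z ⊔ AA Q y := by
  rcases h.hQ'.sq_mem t ht with h1 | h1
  · rw [h1]; exact one_mem _
  · rw [h1]; exact h.V_le_R h.y_V

/-- The images of `u` and `t` in the quotient. -/
theorem pair_quot (hN : ((AA Q' z ⊔ AA Q y).subgroupOf (Q ⊔ Q')).Normal) :
    Pair ((⟨u, (le_sup_left : Q ≤ Q ⊔ Q') hu⟩ : ↥(Q ⊔ Q')) : ↥(Q ⊔ Q') ⧸ (AA Q' z ⊔ AA Q y).subgroupOf (Q ⊔ Q'))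
      ((⟨t, (le_sup_right : Q' ≤ Q ⊔ Q') ht⟩ : ↥(Q ⊔ Q')) : ↥(Q ⊔ Q') ⧸ (AA Q' z ⊔ AA Q y).subgroupOf (Q ⊔ Q')) := by
  set U : ↥(Q ⊔ Q') := ⟨u, (le_sup_left : Q ≤ Q ⊔ Q') hu⟩ with hU
  set T : ↥(Q ⊔ Q') := ⟨t, (le_sup_right : Q' ≤ Q ⊔ Q') ht⟩ with hT
  have h1 : ((U : ↥(Q ⊔ Q') ⧸ (AA Q' z ⊔ AA Q y).subgroupOf (Q ⊔ Q'))) * (U : ↥(Q ⊔ Q') ⧸ (AA Q' z ⊔ AA Q y).subgroupOf (Q ⊔ Q')) = 1 := by
    rw [← QuotientGroup.mk_mul, QuotientGroup.eq_one_iff, Subgroup.mem_subgroupOf]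
    exact sq_mem_R_u h hu huy ht htz
  have h2 : ((T : ↥(Q ⊔ Q') ⧸ (AA Q' z ⊔ AA Q y).subgroupOf (Q ⊔ Q'))) * (T : ↥(Q ⊔ Q') ⧸ (AA Q' z ⊔ AA Q y).subgroupOf (Q ⊔ Q')) = 1 := by
    rw [← QuotientGroup.mk_mul, QuotientGroup.eq_one_iff, Subgroup.mem_subgroupOf]
    exact sq_mem_R_t h hu huy ht htz
  have h3 : (T : ↥(Q ⊔ Q') ⧸ (AA Q' z ⊔ AA Q y).subgroupOf (Q ⊔ Q')) = ((U * T * U * (U * T)⁻¹ : ↥(Q ⊔ Q')) : ↥(Q ⊔ Q') ⧸ (AA Q' z ⊔ AA Q y).subgroupOf (Q ⊔ Q')) := by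
    rw [QuotientGroup.eq, Subgroup.mem_subgroupOf]
    exact h.B_le_R (rho_u_coset h hu huy ht htz)
  refine ⟨h1, h2, ?_⟩
  set a := (U : ↥(Q ⊔ Q') ⧸ (AA Q' z ⊔ AA Q y).subgroupOf (Q ⊔ Q')) with ha
  set b := (T : ↥(Q ⊔ Q') ⧸ (AA Q' z ⊔ AA Q y).subgroupOf (Q ⊔ Q')) with hb
  have h4 : b = a * b * a * (a * b)⁻¹ := h3
  have hai : a⁻¹ = a := inv_eq_of_mul_eq_one_left h1
  have hbi : b⁻¹ = b := inv_eq_of_mul_eq_one_left h2
  rw [mul_inv_rev, hai, hbi] at h4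
  have h5 : b * a * b = a * b * a := by
    calc b * a * b = (a * b * a * (b * a)) * a * b := by rw [← h4]
      _ = a * b * a * b * (a * a) * b := by group
      _ = a * b * a * (b * b) := by rw [h1]; group
      _ = a * b * a := by rw [h2, mul_one]
  calc (a * b) ^ 3 = a * b * (a * b * a) * b := by
        simp only [pow_succ, pow_zero, one_mul, mul_assoc]
    _ = a * b * (b * a * b) * b := by rw [h5]
    _ = a * (b * b) * a * (b * b) := by group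
    _ = 1 := by rw [h2, mul_one, mul_one, h1]

/-- Every element of `Q` or `Q'` has image in the closure, so the images generate. -/
theorem gen_quot (hN : ((AA Q' z ⊔ AA Q y).subgroupOf (Q ⊔ Q')).Normal) :
    Subgroup.closure ({((⟨u, (le_sup_left : Q ≤ Q ⊔ Q') hu⟩ : ↥(Q ⊔ Q')) : ↥(Q ⊔ Q') ⧸ (AA Q' z ⊔ AA Q y).subgroupOf (Q ⊔ Q')),
      ((⟨t, (le_sup_right : Q' ≤ Q ⊔ Q') ht⟩ : ↥(Q ⊔ Q')) : ↥(Q ⊔ Q') ⧸ (AA Q' z ⊔ AA Q y).subgroupOf (Q ⊔ Q'))} : Set _) = ⊤ := by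
  rw [eq_top_iff]
  set K := Subgroup.closure ({((⟨u, (le_sup_left : Q ≤ Q ⊔ Q') hu⟩ : ↥(Q ⊔ Q')) : ↥(Q ⊔ Q') ⧸ (AA Q' z ⊔ AA Q y).subgroupOf (Q ⊔ Q')),
      ((⟨t, (le_sup_right : Q' ≤ Q ⊔ Q') ht⟩ : ↥(Q ⊔ Q')) : ↥(Q ⊔ Q') ⧸ (AA Q' z ⊔ AA Q y).subgroupOf (Q ⊔ Q'))} : Set _) with hK
  let Y : Subgroup G := (K.comap (QuotientGroup.mk' ((AA Q' z ⊔ AA Q y).subgroupOf (Q ⊔ Q')))).map (Q ⊔ Q').subtype
  have hQY : Q ≤ Y := by
    intro q hq
    have hqX : q ∈ Q ⊔ Q' := (le_sup_left : Q ≤ Q ⊔ Q') hq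
    refine ⟨⟨q, hqX⟩, ?_, rfl⟩
    show ((⟨q, hqX⟩ : ↥(Q ⊔ Q')) : ↥(Q ⊔ Q') ⧸ (AA Q' z ⊔ AA Q y).subgroupOf (Q ⊔ Q')) ∈ K
    by_cases hqA : q ∈ AA Q y
    · have : ((⟨q, hqX⟩ : ↥(Q ⊔ Q')) : ↥(Q ⊔ Q') ⧸ (AA Q' z ⊔ AA Q y).subgroupOf (Q ⊔ Q')) = 1 := by
        rw [QuotientGroup.eq_one_iff, Subgroup.mem_subgroupOf]
        exact h.A_le_R hqA
      rw [this]; exact one_mem _
    · have : ((⟨q, hqX⟩ : ↥(Q ⊔ Q')) : ↥(Q ⊔ Q') ⧸ (AA Q' z ⊔ AA Q y).subgroupOf (Q ⊔ Q')) =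
          ((⟨u, (le_sup_left : Q ≤ Q ⊔ Q') hu⟩ : ↥(Q ⊔ Q')) : ↥(Q ⊔ Q') ⧸ (AA Q' z ⊔ AA Q y).subgroupOf (Q ⊔ Q')) := by
        symm
        rw [QuotientGroup.eq, Subgroup.mem_subgroupOf]
        exact h.A_le_R (h.coset_A hu huy hq hqA)
      rw [this]
      exact Subgroup.subset_closure (by simp)
  have hQ'Y : Q' ≤ Y := by
    intro q hq
    have hqX : q ∈ Q ⊔ Q' := (le_sup_right : Q' ≤ Q ⊔ Q') hq
    refine ⟨⟨q, hqX⟩, ?_, rfl⟩
    show ((⟨q, hqX⟩ : ↥(Q ⊔ Q')) : ↥(Q ⊔ Q') ⧸ (AA Q' z ⊔ AA Q y).subgroupOf (Q ⊔ Q')) ∈ K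
    by_cases hqA : q ∈ AA Q' z
    · have : ((⟨q, hqX⟩ : ↥(Q ⊔ Q')) : ↥(Q ⊔ Q') ⧸ (AA Q' z ⊔ AA Q y).subgroupOf (Q ⊔ Q')) = 1 := by
        rw [QuotientGroup.eq_one_iff, Subgroup.mem_subgroupOf]
        exact h.B_le_R hqA
      rw [this]; exact one_mem _
    · have : ((⟨q, hqX⟩ : ↥(Q ⊔ Q')) : ↥(Q ⊔ Q') ⧸ (AA Q' z ⊔ AA Q y).subgroupOf (Q ⊔ Q')) =
          ((⟨t, (le_sup_right : Q' ≤ Q ⊔ Q') ht⟩ : ↥(Q ⊔ Q')) : ↥(Q ⊔ Q') ⧸ (AA Q' z ⊔ AA Q y).subgroupOf (Q ⊔ Q')) := by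
        symm
        rw [QuotientGroup.eq, Subgroup.mem_subgroupOf]
        exact h.B_le_R (h.symm.coset_A ht htz hq hqA)
      rw [this]
      exact Subgroup.subset_closure (by simp)
  intro c _
  obtain ⟨x, rfl⟩ := QuotientGroup.mk_surjective c
  obtain ⟨x', hx', hxe⟩ := sup_le hQY hQ'Y x.2
  have : x' = x := Subtype.ext hxe
  rw [← this]
  exact hx'

theorem exists_six (hN : ((AA Q' z ⊔ AA Q y).subgroupOf (Q ⊔ Q')).Normal) {p : G} (hp : p ∈ Q ⊔ Q') :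
    ∃ i e : ℕ, i < 3 ∧ e < 2 ∧ ∃ r ∈ AA Q' z ⊔ AA Q y, p = (u * t) ^ i * u ^ e * r := by
  have T := pair_quot h hu huy ht htz hN
  have hG := gen_quot h hu huy ht htz hN
  obtain ⟨i, e, hie⟩ := T.exists_F (g := ((⟨p, hp⟩ : ↥(Q ⊔ Q')) : ↥(Q ⊔ Q') ⧸ (AA Q' z ⊔ AA Q y).subgroupOf (Q ⊔ Q')))
    (by rw [hG]; trivial)
  rw [pow_eq_pow_mod i T.hxy, pow_eq_pow_mod e (by rw [pow_two]; exact T.hx)] at hie
  refine ⟨i % 3, e % 2, Nat.mod_lt _ (by norm_num), Nat.mod_lt _ (by norm_num), ?_⟩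
  set i' := i % 3
  set e' := e % 2
  set U : ↥(Q ⊔ Q') := ⟨u, (le_sup_left : Q ≤ Q ⊔ Q') hu⟩ with hU
  set T' : ↥(Q ⊔ Q') := ⟨t, (le_sup_right : Q' ≤ Q ⊔ Q') ht⟩ with hT'
  have h1 : ((⟨p, hp⟩ : ↥(Q ⊔ Q')) : ↥(Q ⊔ Q') ⧸ (AA Q' z ⊔ AA Q y).subgroupOf (Q ⊔ Q')) =
      (((U * T') ^ i' * U ^ e' : ↥(Q ⊔ Q')) : ↥(Q ⊔ Q') ⧸ (AA Q' z ⊔ AA Q y).subgroupOf (Q ⊔ Q')) := hie
  have h2 := QuotientGroup.eq.1 h1.symm
  rw [Subgroup.mem_subgroupOf] at h2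
  refine ⟨_, h2, ?_⟩
  have e : ∀ A B p : G, p = A * B * (B⁻¹ * A⁻¹ * p) := by intros; group
  simp only [hU, hT', Subgroup.coe_mul, Subgroup.coe_inv, Subgroup.coe_pow, mul_inv_rev]
  exact e _ _ _

/-- The action table of the six coset representatives. -/
theorem tbl1 : (u * t) ^ 0 * u ^ 0 = 1 := by simp

theorem act_u : u * z * u⁻¹ = z ∧ u * y * u⁻¹ = z * y := by
  refine ⟨?_, huy⟩
  rw [h.hQ.central u hu]; group

theorem act_rho : (u * t) * z * (u * t)⁻¹ = y ∧ (u * t) * y * (u * t)⁻¹ = z * y :=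
  ⟨rho_z h hu huy ht htz, rho_y h hu huy ht htz⟩

theorem act_comp {a b a' b' p₁ p₂ : G} (h1 : a * z * a⁻¹ = a') (h2 : a * y * a⁻¹ = b')
    (h3 : b * a' * b⁻¹ = p₁) (h4 : b * b' * b⁻¹ = p₂) :
    (b * a) * z * (b * a)⁻¹ = p₁ ∧ (b * a) * y * (b * a)⁻¹ = p₂ := by
  constructor
  · rw [← h3, ← h1]; group
  · rw [← h4, ← h2]; group

theorem act_rho_zy : (u * t) * (z * y) * (u * t)⁻¹ = z := by
  have h1 := conj_pair h hu huy ht htz (rho_z h hu huy ht htz) (rho_y h hu huy ht htz)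
  have e : y * (z * y) = z := by
    rw [← mul_assoc, ← h.zy, mul_assoc, h.yy, mul_one]
  rwa [e] at h1

/-- The action of `ρ u`. -/
theorem act_rho_u : ((u * t) * u) * z * ((u * t) * u)⁻¹ = y ∧ ((u * t) * u) * y * ((u * t) * u)⁻¹ = z := by
  obtain ⟨h1, h2⟩ := act_u h hu huy ht htz
  exact act_comp h hu huy ht htz h1 h2 (rho_z h hu huy ht htz) (act_rho_zy h hu huy ht htz)

/-- The action of `ρ²`. -/
theorem act_rho2 : ((u * t) * (u * t)) * z * ((u * t) * (u * t))⁻¹ = z * y ∧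
    ((u * t) * (u * t)) * y * ((u * t) * (u * t))⁻¹ = z := by
  exact act_comp h hu huy ht htz (rho_z h hu huy ht htz) (rho_y h hu huy ht htz)
    (rho_y h hu huy ht htz) (act_rho_zy h hu huy ht htz)

/-- The action of `ρ² u`. -/
theorem act_rho2_u : ((u * t) * (u * t) * u) * z * ((u * t) * (u * t) * u)⁻¹ = z * y ∧
    ((u * t) * (u * t) * u) * y * ((u * t) * (u * t) * u)⁻¹ = y := by
  obtain ⟨h1, h2⟩ := act_u h hu huy ht htz
  obtain ⟨h3, h4⟩ := act_rho2 h hu huy ht htz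
  refine act_comp h hu huy ht htz h1 h2 h3 ?_
  have e : ((u * t) * (u * t)) * (z * y) * ((u * t) * (u * t))⁻¹ =
      (((u * t) * (u * t)) * z * ((u * t) * (u * t))⁻¹) * (((u * t) * (u * t)) * y * ((u * t) * (u * t))⁻¹) := by group
  rw [e, h3, h4, h.zyz]

/-- The centralizer of `V` in `X` is `R`. -/
theorem cent_X_le (hN : ((AA Q' z ⊔ AA Q y).subgroupOf (Q ⊔ Q')).Normal) {p : G} (hp : p ∈ Q ⊔ Q')
    (hpz : p * z = z * p) (hpy : p * y = y * p) : p ∈ AA Q' z ⊔ AA Q y := by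
  obtain ⟨i, e, hi, he, r, hr, rfl⟩ := exists_six h hu huy ht htz hN hp
  obtain ⟨hrz, hry⟩ := h.R_le_C hr
  set s := (u * t) ^ i * u ^ e with hs
  have hsz : s * z * s⁻¹ = z := by
    have h1 : s * z = z * s := by
      have h2 : (s * r) * z = s * (z * r) := by rw [mul_assoc, hrz]
      rw [h2] at hpz
      have h3 : s * z * r = z * s * r := by rw [mul_assoc, hpz]; group
      exact mul_right_cancel h3
    rw [h1]; group
  have hsy : s * y * s⁻¹ = y := by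
    have h1 : s * y = y * s := by
      have h2 : (s * r) * y = s * (y * r) := by rw [mul_assoc, hry]
      rw [h2] at hpy
      have h3 : s * y * r = y * s * r := by rw [mul_assoc, hpy]; group
      exact mul_right_cancel h3
    rw [h1]; group
  have hs1 : s = 1 := by
    have hc1 := act_rho h hu huy ht htz
    have hc2 := act_u h hu huy ht htz
    have hc3 := act_rho_u h hu huy ht htz
    have hc4 := act_rho2 h hu huy ht htz
    have hc5 := act_rho2_u h hu huy ht htz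
    interval_cases i <;> interval_cases e
    · simpa [hs] using hs
    · exfalso
      have e1 : s = u := by simp [hs]
      rw [e1, hc2.2] at hsy
      exact h.zyy' hsy
    · exfalso
      have e1 : s = u * t := by simp [hs]
      rw [e1, hc1.1] at hsz
      exact h.hne hsz
    · exfalso
      have e1 : s = u * t * u := by simp [hs]
      rw [e1, hc3.1] at hsz
      exact h.hne hsz
    · exfalso
      have e1 : s = u * t * (u * t) := by simp [hs, pow_two]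
      rw [e1, hc4.1] at hsz
      exact h.zyz' hsz
    · exfalso
      have e1 : s = u * t * (u * t) * u := by simp [hs, pow_two]
      rw [e1, hc5.1] at hsz
      exact h.zyz' hsz
  rw [hs1, one_mul]
  exact hr

theorem quot_ne (hN : ((AA Q' z ⊔ AA Q y).subgroupOf (Q ⊔ Q')).Normal) :
    ((⟨u, (le_sup_left : Q ≤ Q ⊔ Q') hu⟩ : ↥(Q ⊔ Q')) : ↥(Q ⊔ Q') ⧸ (AA Q' z ⊔ AA Q y).subgroupOf (Q ⊔ Q')) ≠
      ((⟨t, (le_sup_right : Q' ≤ Q ⊔ Q') ht⟩ : ↥(Q ⊔ Q')) : ↥(Q ⊔ Q') ⧸ (AA Q' z ⊔ AA Q y).subgroupOf (Q ⊔ Q')) := by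
  intro hh
  have h1 := QuotientGroup.eq.1 hh
  rw [Subgroup.mem_subgroupOf] at h1
  have h2 : u⁻¹ * t ∈ AA Q' z ⊔ AA Q y := by simpa using h1
  obtain ⟨h3, h4⟩ := h.R_le_C h2
  -- `t z t⁻¹ = y z` and `u z u⁻¹ = z`.
  have h5 : t * z = u * z * (u⁻¹ * t) := by
    have : u * z * (u⁻¹ * t) = u * (z * (u⁻¹ * t)) := by group
    rw [this, ← h3]; group
  have h6 : t * z * t⁻¹ = z := by
    rw [h5, h.hQ.central u hu]; group
  rw [h6] at htz
  apply h.y1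
  exact mul_eq_right.1 htz.symm

theorem nonempty_quot (hN : ((AA Q' z ⊔ AA Q y).subgroupOf (Q ⊔ Q')).Normal) :
    Nonempty (↥(Q ⊔ Q') ⧸ (AA Q' z ⊔ AA Q y).subgroupOf (Q ⊔ Q') ≃* Equiv.Perm (Fin 3)) :=
  (pair_quot h hu huy ht htz hN).nonempty_equiv (gen_quot h hu huy ht htz hN) (quot_ne h hu huy ht htz hN)

/-- All six pairs are realized in `X`. -/
theorem six_pairs {p₁ p₂ : G} (h1 : p₁ ∈ Subgroup.closure ({z, y} : Set G))
    (h2 : p₂ ∈ Subgroup.closure ({z, y} : Set G)) (h11 : p₁ ≠ 1) (h21 : p₂ ≠ 1) (h12 : p₁ ≠ p₂) :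
    ∃ s ∈ Q ⊔ Q', s * z * s⁻¹ = p₁ ∧ s * y * s⁻¹ = p₂ := by
  have hUX : u ∈ Q ⊔ Q' := (le_sup_left : Q ≤ Q ⊔ Q') hu
  have hTX : t ∈ Q ⊔ Q' := (le_sup_right : Q' ≤ Q ⊔ Q') ht
  have hRX : u * t ∈ Q ⊔ Q' := mul_mem hUX hTX
  have hc1 := act_rho h hu huy ht htz
  have hc2 := act_u h hu huy ht htz
  have hc3 := act_rho_u h hu huy ht htz
  have hc4 := act_rho2 h hu huy ht htz
  have hc5 := act_rho2_u h hu huy ht htz
  rcases (h.mem_V p₁).1 h1 with rfl | rfl | rfl | rfl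
  · exact absurd rfl h11
  · rcases (h.mem_V p₂).1 h2 with rfl | rfl | rfl | rfl
    · exact absurd rfl h21
    · exact absurd rfl h12
    · exact ⟨1, one_mem _, by simp, by simp⟩
    · exact ⟨u, hUX, hc2.1, hc2.2⟩
  · rcases (h.mem_V p₂).1 h2 with rfl | rfl | rfl | rfl
    · exact absurd rfl h21
    · exact ⟨_, mul_mem hRX hUX, hc3.1, hc3.2⟩
    · exact absurd rfl h12
    · exact ⟨_, hRX, hc1.1, hc1.2⟩
  · rcases (h.mem_V p₂).1 h2 with rfl | rfl | rfl | rfl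
    · exact absurd rfl h21
    · exact ⟨_, mul_mem hRX hRX, hc4.1, hc4.2⟩
    · exact ⟨_, mul_mem (mul_mem hRX hRX) hUX, hc5.1, hc5.2⟩
    · exact absurd rfl h12

/-- Conjugates of `Q` by elements moving `z` into `V` are in `X`. -/
theorem conj_Q_X {k q : G} (hk : k * z * k⁻¹ ∈ Subgroup.closure ({z, y} : Set G)) (hk1 : k * z * k⁻¹ ≠ 1)
    (hq : q ∈ Q) : k * q * k⁻¹ ∈ Q ⊔ Q' := by
  have hUX : u ∈ Q ⊔ Q' := (le_sup_left : Q ≤ Q ⊔ Q') hu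
  have conj_of : ∀ m : G, m * z * m⁻¹ = k * z * k⁻¹ → ∃ q₁ ∈ Q, k * q * k⁻¹ = m * q₁ * m⁻¹ := by
    intro m hm
    have hc : (m⁻¹ * k) * z = z * (m⁻¹ * k) := by
      have h1 : k * z = (m * z * m⁻¹) * k := by rw [hm]; group
      calc (m⁻¹ * k) * z = m⁻¹ * (k * z) := by group
        _ = m⁻¹ * ((m * z * m⁻¹) * k) := by rw [h1]
        _ = z * (m⁻¹ * k) := by group
    refine ⟨_, h.hQ.norm _ hc q hq, by group⟩
  have hQ'conj : ∀ q₁ ∈ Q, g * q₁ * g⁻¹ ∈ Q' := by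
    intro q₁ hq₁
    rw [h.hQ'def, mem_map_conj]
    have e : g⁻¹ * (g * q₁ * g⁻¹) * g = q₁ := by group
    rwa [e]
  rcases (h.mem_V _).1 hk with h1 | h1 | h1 | h1
  · exact absurd h1 hk1
  · obtain ⟨q₁, hq₁, e⟩ := conj_of 1 (by rw [h1]; simp)
    rw [e]
    simpa using (le_sup_left : Q ≤ Q ⊔ Q') hq₁
  · obtain ⟨q₁, hq₁, e⟩ := conj_of g (by rw [h1, h.hg])
    rw [e]
    exact (le_sup_right : Q' ≤ Q ⊔ Q') (hQ'conj q₁ hq₁)
  · obtain ⟨q₁, hq₁, e⟩ := conj_of (u * g) (by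
      rw [h1, ← huy, ← h.hg]; group)
    rw [e]
    have e2 : u * g * q₁ * (u * g)⁻¹ = u * (g * q₁ * g⁻¹) * u⁻¹ := by group
    rw [e2]
    exact mul_mem (mul_mem hUX ((le_sup_right : Q' ≤ Q ⊔ Q') (hQ'conj q₁ hq₁))) (inv_mem hUX)

end quotient

theorem mem_cent_V {c : G} :
    c ∈ Subgroup.centralizer ((Subgroup.closure ({z, y} : Set G) : Subgroup G) : Set G) ↔
      c * z = z * c ∧ c * y = y * c := by
  rw [Subgroup.mem_centralizer_iff]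
  constructor
  · intro hh
    exact ⟨(hh z h.z_V).symm, (hh y h.y_V).symm⟩
  · rintro ⟨h1, h2⟩ v hv
    exact (h.V_comm h1 h2 hv).symm

theorem V_normalizer_of_conj {q : G}
    (h1 : ∀ v ∈ Subgroup.closure ({z, y} : Set G), q * v * q⁻¹ ∈ Subgroup.closure ({z, y} : Set G))
    (h2 : ∀ v ∈ Subgroup.closure ({z, y} : Set G), q⁻¹ * v * q⁻¹⁻¹ ∈ Subgroup.closure ({z, y} : Set G)) :
    q ∈ Subgroup.normalizer ((Subgroup.closure ({z, y} : Set G) : Subgroup G) : Set G) := by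
  rw [Subgroup.mem_normalizer_iff]
  intro v
  refine ⟨h1 v, fun hh => ?_⟩
  have := h2 _ hh
  have e : q⁻¹ * (q * v * q⁻¹) * q⁻¹⁻¹ = v := by group
  rwa [e] at this

theorem main_all :
    (AA Q' z ⊔ AA Q y) = (Q ⊔ Q') ⊓ Subgroup.centralizer ((Subgroup.closure ({z, y} : Set G) : Subgroup G) : Set G) ∧
    (AA Q' z ⊔ AA Q y) = (Cfsg.pCore 2 ↥(Q ⊔ Q')).map (Q ⊔ Q').subtype ∧
    (∃ _ : ((AA Q' z ⊔ AA Q y).subgroupOf (Q ⊔ Q')).Normal,
      Nonempty (↥(Q ⊔ Q') ⧸ (AA Q' z ⊔ AA Q y).subgroupOf (Q ⊔ Q') ≃* Equiv.Perm (Fin 3))) ∧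
    Subgroup.normalizer ((Subgroup.closure ({z, y} : Set G) : Subgroup G) : Set G) =
      (Q ⊔ Q') ⊔ (Subgroup.centralizer ({z} : Set G) ⊓ Subgroup.centralizer ((Subgroup.closure ({z, y} : Set G) : Subgroup G) : Set G)) ∧
    (∀ n ∈ Subgroup.normalizer ((Subgroup.closure ({z, y} : Set G) : Subgroup G) : Set G), ∀ x ∈ Q ⊔ Q', n * x * n⁻¹ ∈ Q ⊔ Q') ∧
    (AA Q' z ⊔ AA Q y) ≤ Subgroup.centralizer ({z} : Set G) ⊓ Subgroup.centralizer ((Subgroup.closure ({z, y} : Set G) : Subgroup G) : Set G) ∧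
    (∀ x ∈ Q ⊔ Q', ∀ c ∈ Subgroup.centralizer ({z} : Set G) ⊓ Subgroup.centralizer ((Subgroup.closure ({z, y} : Set G) : Subgroup G) : Set G),
      x * c * x⁻¹ * c⁻¹ ∈ AA Q' z ⊔ AA Q y) ∧
    (Q ⊔ Q') ⊓ (Subgroup.centralizer ({z} : Set G) ⊓ Subgroup.centralizer ((Subgroup.closure ({z, y} : Set G) : Subgroup G) : Set G)) = AA Q' z ⊔ AA Q y := by
  classical
  obtain ⟨u, hu, huy⟩ := h.exists_u
  obtain ⟨t, ht, htz⟩ := h.symm.exists_u
  have hN := h.R_normal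
  obtain ⟨eqv⟩ := nonempty_quot h hu huy ht htz hN
  have hcz : ∀ c, c ∈ Subgroup.centralizer ({z} : Set G) ↔ c * z = z * c := by
    intro c
    rw [Subgroup.mem_centralizer_iff]
    simp only [Set.mem_singleton_iff, forall_eq]
    exact eq_comm
  have cl1 : (AA Q' z ⊔ AA Q y) = (Q ⊔ Q') ⊓ Subgroup.centralizer ((Subgroup.closure ({z, y} : Set G) : Subgroup G) : Set G) := by
    apply le_antisymm
    · intro r hr
      exact Subgroup.mem_inf.2 ⟨h.R_le_X hr, h.mem_cent_V.2 (h.R_le_C hr)⟩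
    · intro p hp
      obtain ⟨hp1, hp2⟩ := Subgroup.mem_inf.1 hp
      obtain ⟨h3, h4⟩ := h.mem_cent_V.1 hp2
      exact cent_X_le h hu huy ht htz hN hp1 h3 h4
  have cl8 : (Q ⊔ Q') ⊓ (Subgroup.centralizer ({z} : Set G) ⊓ Subgroup.centralizer ((Subgroup.closure ({z, y} : Set G) : Subgroup G) : Set G)) = AA Q' z ⊔ AA Q y := by
    rw [cl1]
    ext c
    simp only [Subgroup.mem_inf]
    constructor
    · rintro ⟨h1, h2, h3⟩
      exact ⟨h1, h3⟩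
    · rintro ⟨h1, h3⟩
      exact ⟨h1, (hcz c).2 (h.mem_cent_V.1 h3).1, h3⟩
  have cl6 : (AA Q' z ⊔ AA Q y) ≤ Subgroup.centralizer ({z} : Set G) ⊓ Subgroup.centralizer ((Subgroup.closure ({z, y} : Set G) : Subgroup G) : Set G) := by
    rw [← cl8]
    exact inf_le_right
  have cl7 : ∀ x ∈ Q ⊔ Q', ∀ c ∈ Subgroup.centralizer ({z} : Set G) ⊓ Subgroup.centralizer ((Subgroup.closure ({z, y} : Set G) : Subgroup G) : Set G),
      x * c * x⁻¹ * c⁻¹ ∈ AA Q' z ⊔ AA Q y := by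
    intro x hx c hc
    obtain ⟨h1, h2⟩ := h.mem_cent_V.1 (Subgroup.mem_inf.1 hc).2
    exact h.comm_X_C hx h1 h2
  -- The homomorphism to `Perm (Fin 3)`
  let f : ↥(Q ⊔ Q') →* Equiv.Perm (Fin 3) := eqv.toMonoidHom.comp (QuotientGroup.mk' _)
  have hfker : ∀ p : ↥(Q ⊔ Q'), f p = 1 ↔ (p : G) ∈ AA Q' z ⊔ AA Q y := by
    intro p
    have e1 : f p = eqv (p : ↥(Q ⊔ Q') ⧸ (AA Q' z ⊔ AA Q y).subgroupOf (Q ⊔ Q')) := rfl
    rw [e1, MulEquiv.map_eq_one_iff, QuotientGroup.eq_one_iff, Subgroup.mem_subgroupOf]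
  have hfsurj : Function.Surjective f := by
    intro σ
    obtain ⟨c, hc⟩ := eqv.surjective σ
    obtain ⟨p, rfl⟩ := QuotientGroup.mk_surjective c
    exact ⟨p, hc⟩
  have hS3 := perm3_fact
  have cl2 : (AA Q' z ⊔ AA Q y) = (Cfsg.pCore 2 ↥(Q ⊔ Q')).map (Q ⊔ Q').subtype := by
    apply le_antisymm
    · intro r hr
      have hP : IsPGroup 2 ↥((AA Q' z ⊔ AA Q y).subgroupOf (Q ⊔ Q')) :=
        IsPGroup.of_equiv h.isP_R (Subgroup.subgroupOfEquivOfLe h.R_le_X).symm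
      have hle := Cfsg.Agent.Lib.Core.Basic.le_pCore hN hP
      exact ⟨⟨r, h.R_le_X hr⟩, hle (Subgroup.mem_subgroupOf.2 hr), rfl⟩
    · rintro _ ⟨p, hp, rfl⟩
      show (p : G) ∈ AA Q' z ⊔ AA Q y
      rw [← hfker]
      by_contra hne
      obtain ⟨π, hπ1, hπ2⟩ := hS3 _ hne
      obtain ⟨τ, rfl⟩ := hfsurj π
      have hnorm : (Cfsg.pCore 2 ↥(Q ⊔ Q')).Normal := Subgroup.normal_of_characteristic _
      have hc₀ : τ * p * τ⁻¹ * p⁻¹ ∈ Cfsg.pCore 2 ↥(Q ⊔ Q') :=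
        mul_mem (hnorm.conj_mem p hp τ) (inv_mem hp)
      obtain ⟨k, hk⟩ := (Cfsg.Agent.Lib.Core.Basic.pCore_isPGroup (p := 2) (G := ↥(Q ⊔ Q'))) ⟨_, hc₀⟩
      have hk' : (τ * p * τ⁻¹ * p⁻¹) ^ 2 ^ k = 1 := congrArg Subtype.val hk
      have hk'' : (f τ * f p * (f τ)⁻¹ * (f p)⁻¹) ^ 2 ^ k = 1 := by
        have := congrArg f hk'
        simpa using this
      have hg := pow_gcd_eq_one.2 ⟨hk'', hπ2⟩
      have hgc : Nat.gcd (2 ^ k) 3 = 1 := Nat.Coprime.pow_left k (by norm_num)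
      rw [hgc, pow_one] at hg
      exact hπ1 hg
  have cl4 : Subgroup.normalizer ((Subgroup.closure ({z, y} : Set G) : Subgroup G) : Set G) =
      (Q ⊔ Q') ⊔ (Subgroup.centralizer ({z} : Set G) ⊓ Subgroup.centralizer ((Subgroup.closure ({z, y} : Set G) : Subgroup G) : Set G)) := by
    apply le_antisymm
    · intro n hn
      have hnV := Subgroup.mem_normalizer_iff.1 hn
      have h1 := (hnV z).1 h.z_V
      have h2 := (hnV y).1 h.y_V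
      have h11 : n * z * n⁻¹ ≠ 1 := by
        intro hh
        apply h.z1
        have : z = n⁻¹ * (n * z * n⁻¹) * n := by group
        rw [this, hh]; group
      have h21 : n * y * n⁻¹ ≠ 1 := by
        intro hh
        apply h.y1
        have : y = n⁻¹ * (n * y * n⁻¹) * n := by group
        rw [this, hh]; group
      have h12 : n * z * n⁻¹ ≠ n * y * n⁻¹ := by
        intro hh
        apply h.hne
        have e1 := mul_left_cancel (mul_right_cancel hh)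
        exact e1.symm
      obtain ⟨s, hs, hs1, hs2⟩ := six_pairs h hu huy ht htz h1 h2 h11 h21 h12
      have hn' : n = s * (s⁻¹ * n) := by group
      rw [hn']
      refine Subgroup.mul_mem_sup hs ?_
      have h3 : (s⁻¹ * n) * z = z * (s⁻¹ * n) := by
        have h4 : n * z = (n * z * n⁻¹) * n := by group
        calc (s⁻¹ * n) * z = s⁻¹ * (n * z) := by group
          _ = s⁻¹ * ((n * z * n⁻¹) * n) := by rw [← h4]
          _ = s⁻¹ * ((s * z * s⁻¹) * n) := by rw [hs1]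
          _ = z * (s⁻¹ * n) := by group
      have h5 : (s⁻¹ * n) * y = y * (s⁻¹ * n) := by
        have h4 : n * y = (n * y * n⁻¹) * n := by group
        calc (s⁻¹ * n) * y = s⁻¹ * (n * y) := by group
          _ = s⁻¹ * ((n * y * n⁻¹) * n) := by rw [← h4]
          _ = s⁻¹ * ((s * y * s⁻¹) * n) := by rw [hs2]
          _ = y * (s⁻¹ * n) := by group
      exact Subgroup.mem_inf.2 ⟨(hcz _).2 h3, h.mem_cent_V.2 ⟨h3, h5⟩⟩
    · refine sup_le (sup_le ?_ ?_) ?_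
      · intro q hq
        exact h.V_normalizer_of_conj (fun v hv => h.V_conj_Q hq hv) (fun v hv => h.V_conj_Q (inv_mem hq) hv)
      · intro q hq
        exact h.V_normalizer_of_conj (fun v hv => h.V_conj_Q' hq hv) (fun v hv => h.V_conj_Q' (inv_mem hq) hv)
      · intro c hc
        obtain ⟨h1, h2⟩ := h.mem_cent_V.1 (Subgroup.mem_inf.1 hc).2
        have hi1 : c⁻¹ * z = z * c⁻¹ := (show Commute c z from h1).inv_left.eq
        have hi2 : c⁻¹ * y = y * c⁻¹ := (show Commute c y from h2).inv_left.eq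
        apply h.V_normalizer_of_conj
        · intro v hv
          rw [h.V_comm h1 h2 hv]
          simpa using hv
        · intro v hv
          rw [h.V_comm hi1 hi2 hv]
          simpa using hv
  have cl5 : ∀ n ∈ Subgroup.normalizer ((Subgroup.closure ({z, y} : Set G) : Subgroup G) : Set G), ∀ x ∈ Q ⊔ Q', n * x * n⁻¹ ∈ Q ⊔ Q' := by
    intro n hn x hx
    have hnV := Subgroup.mem_normalizer_iff.1 hn
    have h1 := (hnV z).1 h.z_V
    have h2 := (hnV y).1 h.y_V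
    have h11 : n * z * n⁻¹ ≠ 1 := by
      intro hh
      apply h.z1
      have : z = n⁻¹ * (n * z * n⁻¹) * n := by group
      rw [this, hh]; group
    have h21 : n * y * n⁻¹ ≠ 1 := by
      intro hh
      apply h.y1
      have : y = n⁻¹ * (n * y * n⁻¹) * n := by group
      rw [this, hh]; group
    let W : Subgroup G := (Q ⊔ Q').comap (MulAut.conj n).toMonoidHom
    have hW : ∀ a, a ∈ W ↔ n * a * n⁻¹ ∈ Q ⊔ Q' := by
      intro a
      simp [W, Subgroup.mem_comap]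
    have hQW : Q ≤ W := by
      intro q hq
      rw [hW]
      exact conj_Q_X h hu huy ht htz h1 h11 hq
    have hQ'W : Q' ≤ W := by
      intro q' hq'
      rw [hW]
      have hq1 : g⁻¹ * q' * g ∈ Q := by
        have := hq'
        rw [h.hQ'def, mem_map_conj] at this
        exact this
      have e : n * q' * n⁻¹ = (n * g) * (g⁻¹ * q' * g) * (n * g)⁻¹ := by group
      have e2 : (n * g) * z * (n * g)⁻¹ = n * y * n⁻¹ := by
        rw [← h.hg]; group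
      rw [e]
      exact conj_Q_X h hu huy ht htz (by rw [e2]; exact h2) (by rw [e2]; exact h21) hq1
    exact (hW x).1 ((sup_le hQW hQ'W) hx)
  exact ⟨cl1, cl2, ⟨hN, ⟨eqv⟩⟩, cl4, cl5, cl6, cl7, cl8⟩

end PS

end Cfsg.Agent.Lib.LargeExtra.PairStruct
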